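import Cfsg.Agent.TIA.Edge

/-! notes/TIA.md, section Act. -/

set_option autoImplicit false
set_option linter.unusedSectionVars false
set_option linter.unusedVariables false

namespace Cfsg.Agent.TIA

open Subgroup Cfsg.Agent.H49
open Cfsg.Agent.H74.Sq (nm nm' fixp ex_ne ne_bot_of cne cne' two_of_sq comm_of_sq m1 m2)

universe u

variable {G : Type u} [Group G] [Finite G] {Ω : Set (Subgroup G)} {B Q P X Y Z : Subgroup G}

theorem Cl.act (h : Cl Ω) (h4 : E4 Ω) (hX : X ∈ Ω) {g x : G} (hg : g ∈ 𝒞(om X)) (hx : x ∈ X) :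
    g * x * g⁻¹ * x⁻¹ ∈ om X := by
  have hy := nm (h.cent_om_le hX hg) hx
  refine mem_om_of (mul_mem hy (inv_mem hx)) ?_
  have c := h.comm X hX _ (inv_mem hx) _ hy
  have c2 := hg _ (h4 X hX x hx)
  calc g * x * g⁻¹ * x⁻¹ * (g * x * g⁻¹ * x⁻¹) = g * x * g⁻¹ * (x⁻¹ * (g * x * g⁻¹)) * x⁻¹ := by group
    _ = g * (x * x) * g⁻¹ * x⁻¹ * x⁻¹ := by rw [c]; group
    _ = 1 := by rw [← c2]; group

theorem Cl.act' (h : Cl Ω) (h4 : E4 Ω) (hX : X ∈ Ω) {g x : G} (hg : g ∈ 𝒞(om X)) (hx : x ∈ X) :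
    ∃ v ∈ om X, g * x * g⁻¹ = v * x := ⟨_, h.act h4 hX hg hx, by group⟩

theorem cj_mul_of {g v x : G} (hc : v * g = g * v) : g * (v * x) * g⁻¹ = v * (g * x * g⁻¹) := by
  rw [← mul_assoc, ← hc]; group

theorem Cl.sq_cent (h : Cl Ω) (h4 : E4 Ω) (hX : X ∈ Ω) {k : G} (hk : k ∈ 𝒞(om X)) :
    k * k ∈ 𝒞(X) := fun x hx => by
  obtain ⟨v, hv, e⟩ := h.act' h4 hX hk hx
  rw [eq_comm, ← mul_inv_eq_iff_eq_mul, show k * k * x * (k * k)⁻¹ = k * (k * x * k⁻¹) * k⁻¹ by group,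
    e, cj_mul_of (hk v hv), e, ← mul_assoc, h.om_sq hX hv, one_mul]

theorem Cl.comm_cent (h : Cl Ω) (h4 : E4 Ω) (hX : X ∈ Ω) {g k : G} (hg : g ∈ 𝒞(om X))
    (hk : k ∈ 𝒞(om X)) : g * k * g⁻¹ * k⁻¹ ∈ 𝒞(X) := fun x hx => by
  have hy := nm' (h.cent_om_le hX hg) (nm' (h.cent_om_le hX hk) hx)
  set y := g⁻¹ * (k⁻¹ * x * k) * g with ey
  obtain ⟨v, hv, e⟩ := h.act' h4 hX hg hy
  obtain ⟨w, hw, e'⟩ := h.act' h4 hX hk hy
  have : g * (k * y * k⁻¹) * g⁻¹ = k * (g * y * g⁻¹) * k⁻¹ := by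
    rw [e', cj_mul_of (hg w hw), e, cj_mul_of (hk v hv), e', ← mul_assoc w v, ← mul_assoc v w,
      (h.comm X hX).toV v hv w hw]
  rw [eq_comm, ← mul_inv_eq_iff_eq_mul]
  calc _ = g * (k * y * k⁻¹) * g⁻¹ := by rw [ey]; group
    _ = x := by rw [this, ey]; group

theorem Cl.sq_eq (h : Cl Ω) (hX : X ∈ Ω) {x y : G} (hx : x ∈ X) (hy : y ∈ X) :
    x * x = y * y ↔ x * y⁻¹ ∈ om X := by
  rw [h.mem_om hX, and_iff_right (mul_mem hx (inv_mem hy)), mul_assoc, ← mul_assoc y⁻¹,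
    h.comm X hX _ (inv_mem hy) _ hx, mul_assoc, ← mul_assoc, ← mul_inv_rev, mul_inv_eq_one]

theorem NC.vc (h : Cl Ω) (e : NC Ω X Y) : Com (om X) (om Y) := h.vc_of_adj e.l e.r e.adj

theorem NC.mem_A (h : Cl Ω) (e : NC Ω X Y) {a : G} :
    a ∈ om X ⊔ om Y ↔ ∃ v ∈ om X, ∃ w ∈ om Y, a = v * w :=
  mem_sup_of_norm_right (norm_of_cent (e.vc h).le_cent)

theorem NC.A_sq (h : Cl Ω) (e : NC Ω X Y) {a : G} (ha : a ∈ om X ⊔ om Y) : a * a = 1 := by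
  obtain ⟨v, hv, w, hw, rfl⟩ := (e.mem_A h).1 ha
  rw [mul_assoc, ← mul_assoc w, ← e.vc h v hv w hw, mul_assoc, h.om_sq e.r hw, mul_one,
    h.om_sq e.l hv]

theorem NC.mem_S (h : Cl Ω) (e : NC Ω X Y) {a : G} :
    a ∈ X ⊔ om Y ↔ ∃ x ∈ X, ∃ w ∈ om Y, a = x * w :=
  mem_sup_of_norm_left fun _ hw => (e.memV h hw).2

theorem NC.normA' (h : Cl Ω) (e : NC Ω X Y) : X ≤ 𝒩(om X ⊔ om Y) := fun x hx => by
  refine mem_norm_of_cj_le ?_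
  rw [cj_sup, cj_eq_of_mem_norm (norm_om (le_normalizer hx))]
  refine sup_le le_sup_left fun a ha => ?_
  obtain ⟨t, ht, rfl⟩ := mem_cj'.1 ha
  have := h.act (e.e4 h) e.l ((e.vc h).symm.le_cent ht) (inv_mem hx)
  have c := h.comm X e.l _ hx _ (nm (e.memV h ht).2 (inv_mem hx))
  rw [inv_inv, ← c] at this
  simpa [mul_assoc] using mul_mem (mem_sup_left this) (mem_sup_right ht)

theorem NC.normA (h : Cl Ω) (e : NC Ω X Y) : X ⊔ Y ≤ 𝒩(om X ⊔ om Y) :=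
  sup_le (e.normA' h) (by rw [sup_comm]; exact (e.symm h).normA' h)

theorem NC.cent_A (h : Cl Ω) (e : NC Ω X Y) {a x : G} (ha : a ∈ om X ⊔ om Y) (hx : x ∈ X)
    (xn : x ∉ om X) (hc : x * a = a * x) : a ∈ om X := by
  obtain ⟨v, hv, w, hw, rfl⟩ := (e.mem_A h).1 ha
  by_cases w1 : w = 1
  · simpa [w1] using hv
  rw [← mul_assoc, h.comm X e.l x hx v (om_le _ hv), mul_assoc, mul_assoc, mul_right_inj] at hc
  exact absurd (e.fix h hx hw w1 hc) xn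

theorem NC.eq_one (h : Cl Ω) (e : NC Ω X Y) {w x : G} (hw : w ∈ om Y) (hx : x ∈ X)
    (xn : x ∉ om X) (hc : x * w = w * x) : w = 1 := by_contra fun w1 => xn (e.fix h hx hw w1 hc)

theorem NC.eq_one' (h : Cl Ω) (e : NC Ω X Y) {w : G} (hw : w ∈ om Y) (hc : w ∈ 𝒞(X)) :
    w = 1 := by
  obtain ⟨x, hx, xn⟩ := h.ex_nom e.l
  exact e.eq_one h hw hx xn (hc x hx)

theorem NC.cent_om (h : Cl Ω) (e : NC Ω X Y) {g : G} (hg : g ∈ 𝒩(Y)) (hc : g ∈ 𝒞(om X)) :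
    g ∈ 𝒞(om Y) := fun w hw => by
  obtain ⟨x, hx, xn⟩ := h.ex_nom e.l
  have h4 := e.e4 h
  obtain ⟨v, hv, e1⟩ := h.act' h4 e.l hc hx
  obtain ⟨u, hu, e2⟩ := h.act' h4 e.l ((e.vc h).symm.le_cent hw) hx
  have hw' := nm (norm_om hg) hw
  have e3 : g * w * g⁻¹ * x * (g * w * g⁻¹)⁻¹ = u * x := by
    have c1 := e.vc h v hv _ hw'
    have : g * w * g⁻¹ * (v * x) * (g * w * g⁻¹)⁻¹ = v * (u * x) := by
      rw [← e1, show g * w * g⁻¹ * (g * x * g⁻¹) * (g * w * g⁻¹)⁻¹ = g * (w * x * w⁻¹) * g⁻¹ by group,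
        e2, cj_mul_of (hc u hu), e1, ← mul_assoc, ← mul_assoc, (h.comm X e.l).toV u hu v hv]
    rwa [cj_mul_of c1, mul_right_inj] at this
  have := e.eq_one h (mul_mem (inv_mem hw) hw') hx xn (by
    rw [← e2, mul_inv_eq_iff_eq_mul] at e3
    rw [mul_assoc w⁻¹, e3]; group)
  rw [inv_mul_eq_one, eq_comm, mul_inv_eq_iff_eq_mul] at this
  exact this.symm

theorem NC.adjust (h : Cl Ω) (e : NC Ω X Y) {k : G} (hk : k ∈ 𝒞(X)) (hk' : k ∈ 𝒞(om Y)) :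
    ∃ v ∈ om X, k * v ∈ 𝒞(Y) := by
  have e' := e.symm h
  obtain ⟨x, hx, xn⟩ := h.ex_nom e.l
  obtain ⟨y, hy, yn⟩ := h.ex_nom e.r
  obtain ⟨w, hw, e1⟩ := h.act' (e.e4 h) e.r hk' hy
  obtain ⟨v, hv, e2⟩ := e'.surj h hy yn hw
  have cX : k * v ∈ 𝒞(X) := mul_mem hk ((h.comm X e.l).le_cent (om_le _ hv))
  have cy : k * v * y = y * (k * v) := by
    have v2 := h.om_inv e.l hv
    have e3 : v * y * v⁻¹ = w * y := by
      rw [mul_inv_eq_iff_eq_mul] at e2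
      rw [← v2, inv_inv, mul_assoc, e2, ← mul_assoc, ← mul_assoc, inv_mul_cancel, one_mul]
    rw [← mul_inv_eq_iff_eq_mul, show k * v * y * (k * v)⁻¹ = k * (v * y * v⁻¹) * k⁻¹ by group, e3,
      cj_mul_of (hk' w hw), e1, ← mul_assoc, h.om_sq e.r hw, one_mul]
  obtain ⟨t, ht, c1, -⟩ := e.sigma h hx xn hy yn
  have m : closure ({x, y} : Set G) ≤ 𝒞[k * v] := by
    rw [closure_le]
    rintro _ (rfl | rfl)
    exacts [mem_cent1.2 (cX _ hx), mem_cent1.2 cy.symm]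
  have cs := mem_cent1.1 (mul_mem (mul_mem (m ht) (m (subset_closure (Or.inl rfl)))) (inv_mem (m ht)))
  refine ⟨v, hv, ?_⟩
  rw [← c1, ← cj_centralizer, mem_cj, mul_assoc, ← cs, inv_mul_cancel_left]
  exact cX

theorem NC.trans (h : Cl Ω) (e : NC Ω X Y) {b c : G} (hb : b ∈ X) (bn : b ∉ om X) (hc : c ∈ X)
    (cn : c ∉ om X) : ∃ g ∈ X ⊔ Y, g ∈ 𝒩(X) ∧ g * b * g⁻¹ * c⁻¹ ∈ om X := by
  obtain ⟨y, hy, yn⟩ := h.ex_nom e.r
  have m : ∀ x ∈ X, ∀ k ∈ closure ({x, y} : Set G), k * x * k⁻¹ ∈ X ⊔ Y := fun x hx k hk => by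
    have : closure ({x, y} : Set G) ≤ X ⊔ Y := by
      rw [closure_le]
      rintro _ (rfl | rfl)
      exacts [mem_sup_left hx, mem_sup_right hy]
    exact mul_mem (mul_mem (this hk) (mem_sup_left hx)) (inv_mem (this hk))
  obtain ⟨k, hk, a1, -, a2⟩ := e.sigma h hb bn hy yn
  obtain ⟨l, hl, b1, -, b2⟩ := e.sigma h hc cn hy yn
  have ms := m b hb k hk
  have mt := m c hc l hl
  generalize k * b * k⁻¹ = s at *
  generalize l * c * l⁻¹ = t at *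
  refine ⟨t⁻¹ * s, mul_mem (inv_mem mt) ms, mem_norm_iff_cj.2 ?_, ?_⟩
  · rw [cj_mul, a1, ← b1, cj_inv_cj]
  · have := mul_mem a2 (inv_mem b2)
    rw [← b1, ← cj_om, mem_cj] at this
    convert this using 1
    group

theorem NC.inv (h : Cl Ω) (e : NC Ω P Y) {s t : G} (hs : s ∈ P) (ht : t ∈ 𝒞(om P))
    (t2 : t * t = 1) (hn : t * s ∈ 𝒩(Y)) : t * s ∈ 𝒞(om Y) ∧ t * s * t⁻¹ = s⁻¹ := by
  have h4 := e.e4 h
  have c := e.cent_om h hn (mul_mem ht (((h.comm P e.l).mono le_rfl (om_le _)).le_cent hs))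
  refine ⟨c, ?_⟩
  have e1 : t * s * (t * s) = t * s * t⁻¹ * s⁻¹ * (s * s) := by
    rw [inv_eq_of_mul_eq_one_right t2]; group
  have := (e.symm h).eq_one' h (e1 ▸ mul_mem (h.act h4 e.l ht hs) (h4 P e.l s hs))
    (h.sq_cent h4 e.r c)
  rw [inv_eq_of_mul_eq_one_right t2, eq_inv_iff_mul_eq_one, mul_assoc, this]

theorem NC.swap (h : Cl Ω) {t y : G} (e : NC Ω Y (cj t Y)) (hy : y ∈ Y) (yn : y ∉ om Y) :
    ∃ k ∈ Y ⊔ cj t Y, NC Ω (cj k Y) Y ∧ om (cj k Y) ≤ om Y ⊔ om (cj t Y) ∧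
      t⁻¹ * (k * y * k⁻¹) ∈ 𝒩(Y) ∧ y * y * (t * (y * y) * t⁻¹) ∈ om (cj k Y) ∧
      y * y * (t * (y * y) * t⁻¹) ≠ 1 := by
  have hy' : t * y * t⁻¹ ∈ cj t Y := conj_mem_cj.2 hy
  have yn' : t * y * t⁻¹ ∉ om (cj t Y) := by rwa [← cj_om, conj_mem_cj]
  obtain ⟨k, hk, a1, a2, a3⟩ := e.sigma h hy yn hy' yn'
  have h4 := e.e4 h
  have mk : k ∈ Y ⊔ cj t Y := by
    refine (closure_le _).2 ?_ hk
    rintro _ (rfl | rfl)
    exacts [mem_sup_left hy, mem_sup_right hy']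
  have hP := h.conj Y e.l k
  have le : om (cj k Y) ≤ om Y ⊔ om (cj t Y) := by
    rw [← cj_om]
    exact cj_le_of_mem_norm le_sup_left (e.normA h mk)
  have hs : k * y * k⁻¹ ∈ cj k Y := conj_mem_cj.2 hy
  set s := k * y * k⁻¹
  have sn : s ∉ 𝒩(Y) := fun c => e.ne ((cj_eq_of_mem_norm c).symm.trans a1)
  have vc : Com (om (cj k Y)) (om Y) :=
    (((h.comm Y e.l).toV).sup (e.vc h).symm).mono le le_rfl
  have n : NC Ω (cj k Y) Y := ⟨hP, e.l, fun c => sn (le_normalizer (c ▸ hs)),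
    h.adj_of_vc hP e.l vc, fun c => sn (cent_le_norm _ (c.le_cent hs))⟩
  have y2 : y * y ≠ 1 := fun c => yn (mem_om_of hy c)
  have e1 : s * (y * y) * s⁻¹ = t * (y * y) * t⁻¹ := by
    have := (h.sq_eq e.r (a1 ▸ conj_mem_cj.2 hy) hy').2 a3
    calc _ = s * y * s⁻¹ * (s * y * s⁻¹) := by group
      _ = _ := by rw [this]; group
  have hu := h4 Y e.l y hy
  refine ⟨k, mk, n, le, h.norm_of_cm e.l (om_le _ hu) y2 ?_, ?_, fun c => ?_⟩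
  · change t⁻¹ * s * _ = _ * (t⁻¹ * s)
    rw [mul_assoc, mul_inv_eq_iff_eq_mul.1 e1]; group
  · have := h.act h4 hP (vc.symm.le_cent hu) hs
    rw [h.om_inv e.l hu] at this
    rwa [← e1, ← mul_assoc, ← mul_assoc]
  · refine y2 (h.eq_one e.l e.r e.ne (om_le _ hu) ?_)
    rw [eq_inv_of_mul_eq_one_left c]
    exact inv_mem (conj_mem_cj.2 (mul_mem hy hy))

end Cfsg.Agent.TIA
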