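import Cfsg.Agent.TIA.Act
import Cfsg.Agent.H59.TI

/-! notes/TIA.md, section D. -/

set_option autoImplicit false

namespace Cfsg.Agent.TIA

open Subgroup Cfsg.Agent.H49
open Cfsg.Agent.H74.Sq (nm nm' cne cne')

universe u

variable {G : Type u} [Group G] [Finite G] {Ω : Set (Subgroup G)} {B Q P X Y Z : Subgroup G}

theorem Cl.two_com (h : Cl Ω) {S : Subgroup G} (hS : IsPGroup 2 S) (hX : X ∈ Ω) (hY : Y ∈ Ω)
    (h1 : X ≤ S) (h2 : Y ≤ S) : Com X Y := by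
  by_cases e : X = Y
  · exact e ▸ h.comm X hX
  refine H59.comm_of_ti_set hS {R | R ∈ Ω ∧ R ≤ S} (fun R hR => hR.2)
    (fun s hs R hR => ⟨h.conj R hR.1 s, cj_le_of_mem hR.2 hs⟩) (fun R hR => h.nea R hR.1)
    (fun R hR T hT => h.card_eq hR.1 hT.1) (fun R hR T hT => ?_) X ⟨hX, h1⟩ Y ⟨hY, h2⟩ e
  exact or_iff_not_imp_left.2 fun c => eq_bot_iff.2 fun x hx => h.eq_one hR.1 hT.1 c hx.1 hx.2

/-- nontrivial elements of nonadjacent members do not commute -/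
theorem Cl.d_nc (h : Cl Ω) (hX : X ∈ Ω) (hY : Y ∈ Ω) (nv : ¬ Com (om X) (om Y)) {x y : G} (hx : x ∈ X)
    (hy : y ∈ Y) (y1 : y ≠ 1) (hc : y * x = x * y) : x = 1 :=
  by_contra fun x1 => nv (h.vc_of_adj hX hY (h.adj_of_cm hX hx x1 hy y1 hc))

theorem Cl.d_key (h : Cl Ω) (hX : X ∈ Ω) (hY : Y ∈ Ω) (nv : ¬ Com (om X) (om Y)) {a b c : G}
    (ha : a ∈ om X) (hb : b ∈ om X) (b1 : b ≠ 1) (c1 : Com Y (cj a Y)) (c2 : Com Y (cj b Y))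
    (c3 : Com Y (cj (a * b) Y)) (hc : c ∈ Y) (c0 : c ≠ 1) :
    a * c * a⁻¹ * (a * b * c * (a * b)⁻¹) = c * (b * c * b⁻¹) := by
  have k1 : Commute c (a * c * a⁻¹) := c1 c hc _ (conj_mem_cj.2 hc)
  have k2 : Commute c (b * c * b⁻¹) := c2 c hc _ (conj_mem_cj.2 hc)
  have k3 : Commute c (a * b * c * (a * b)⁻¹) := c3 c hc _ (conj_mem_cj.2 hc)
  have f1 : c * (b * c * b⁻¹) * b = b * (c * (b * c * b⁻¹)) := by
    calc _ = b * (b⁻¹ * c * b * c) := by group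
      _ = b * (b * c * b⁻¹ * c) := by rw [h.om_inv hX hb]
      _ = _ := by rw [← k2.eq]
  have f2 := h.norm_of_cm hX (om_le X hb) b1 f1
  have f3 : c * (b * c * b⁻¹) * a * (c * (b * c * b⁻¹))⁻¹ * a⁻¹ ∈ X :=
    mul_mem (nm f2 (om_le X ha)) (inv_mem (om_le X ha))
  have f4 : c * (b * c * b⁻¹) * a * (c * (b * c * b⁻¹))⁻¹ * a⁻¹ =
      c * (b * c * b⁻¹) * (a * c * a⁻¹ * (a * b * c * (a * b)⁻¹))⁻¹ := by group
  have f5 := h.d_nc hX hY nv f3 hc c0 (by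
    rw [f4]; exact (((Commute.refl c).mul_right k2).mul_right (k1.mul_right k3).inv_right).eq)
  rw [f4, mul_inv_eq_one] at f5
  exact f5.symm

theorem Cl.lemD (h : Cl Ω) (hX : X ∈ Ω) (hY : Y ∈ Ω) (nv : ¬ Com (om X) (om Y)) {a b : G}
    (ha : a ∈ om X) (hb : b ∈ om X) (a1 : a ≠ 1) (c1 : Com Y (cj a Y)) (c2 : Com Y (cj b Y))
    (c3 : Com Y (cj (a * b) Y)) : b = 1 ∨ b = a := by
  by_contra! hn
  obtain ⟨c, hc, c0⟩ := h.nea Y hY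
  have c0' : c ≠ 1 := fun e => c0 (by rw [e, mul_one])
  have aab : a * (a * b) = b := by rw [← mul_assoc, h.om_sq hX ha, one_mul]
  have e1 := h.d_key hX hY nv ha hb hn.1 c1 c2 c3 hc c0'
  have e2 := h.d_key hX hY nv ha (mul_mem ha hb) (fun e => hn.2 (by rw [← aab, e, mul_one])) c1 c3
    (by rwa [aab]) hc c0'
  rw [aab] at e2
  have k2 : Commute c (b * c * b⁻¹) := c2 c hc _ (conj_mem_cj.2 hc)
  have k3 : Commute c (a * b * c * (a * b)⁻¹) := c3 c hc _ (conj_mem_cj.2 hc)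
  generalize b * c * b⁻¹ = p at e1 e2 k2
  generalize a * b * c * (a * b)⁻¹ = r at e1 e2 k3
  have e3 : a * (c * c) * a⁻¹ = c * c := by
    calc _ = (a * c * a⁻¹ * r) * r⁻¹ * (a * c * a⁻¹ * p) * p⁻¹ := by group
      _ = c * p * (r⁻¹ * (c * r)) * p⁻¹ := by rw [e1, e2]; group
      _ = c * (p * c) * p⁻¹ := by rw [k3.eq]; group
      _ = _ := by rw [← k2.eq]; group
  exact c0 (h.d_nc hY hX (fun c => nv c.symm) (mul_mem hc hc) (om_le X ha) a1 (mul_inv_eq_iff_eq_mul.1 e3))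

theorem Cl.d_x1 (h : Cl Ω) (hX : X ∈ Ω) (nv : ¬ Com (om X) (om Y)) {e y : G} (he : e ∈ om X)
    (n : NC Ω Y (cj e Y)) (hy : y ∈ Y) (yn : y ∉ om Y) : ∃ k ∈ Y ⊔ cj e Y, NC Ω (cj k Y) X ∧ NC Ω (cj k Y) Y ∧
      e * (k * y * k⁻¹) * e⁻¹ = (k * y * k⁻¹)⁻¹ ∧ ∀ w ∈ om Y, e * w * e⁻¹ * w⁻¹ ∈ om (cj k Y) := by
  obtain ⟨k, hk, n1, -, s1, u1, u2⟩ := n.swap h hy yn
  have h4 := n.e4 h
  have hu := h4 Y n.l y hy
  have e2 := h.om_sq hX he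
  have ei := h.om_inv hX he
  have e1 : e ≠ 1 := fun c => n.ne (by rw [c, cj_one])
  have k1 : y * y * (e * (y * y) * e⁻¹) = e * (y * y) * e⁻¹ * (y * y) :=
    n.vc h _ hu _ (by rw [← cj_om]; exact conj_mem_cj.2 hu)
  have k2 : e * (y * y * (e * (y * y) * e⁻¹)) = y * y * (e * (y * y) * e⁻¹) * e := by
    calc _ = e * (e * (y * y) * e⁻¹ * (y * y)) := by rw [k1]
      _ = e * e * (y * y) * e⁻¹ * (y * y) := by group
      _ = _ := by rw [e2, ei]; simp only [mul_assoc, e2, one_mul, mul_one]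
  have ad : Adj (cj k Y) X := h.adj_of_cm n1.l (om_le _ u1) u2 (om_le _ he) e1 k2
  have vc := h.vc_of_adj n1.l hX ad
  have hs : k * y * k⁻¹ ∈ cj k Y := conj_mem_cj.2 hy
  rw [ei] at s1
  obtain ⟨i1, i2⟩ := n1.inv h hs (vc.symm.le_cent he) e2 s1
  refine ⟨k, hk, ⟨n1.l, hX, fun c => nv (c ▸ n1.vc h), ad, fun c => yn (mem_om_of hy ?_)⟩, n1, i2, fun w hw => ?_⟩
  · rw [← c _ hs e (om_le X he), mul_inv_cancel_right] at i2
    have := eq_inv_iff_mul_eq_one.1 i2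
    rwa [conj_mul, conj_eq_one_iff] at this
  · have := inv_mem (h.act h4 n1.l ((n1.vc h).symm.le_cent hw) hs)
    generalize k * y * k⁻¹ = s at this i1
    have i3 : e * w * e⁻¹ = s * w * s⁻¹ := by
      calc _ = e⁻¹ * (w * (e * s)) * s⁻¹ := by rw [ei]; group
        _ = _ := by rw [i1 w hw]; group
    rw [i3]
    simpa [mul_assoc] using this

theorem Cl.d_x0 (h : Cl Ω) (hX : X ∈ Ω) (hY : Y ∈ Ω) (nv : ¬ Com (om X) (om Y))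
    (hc : ∀ e ∈ om X, Com (om Y) (om (cj e Y))) {e : G} (he : e ∈ om X) (n : ¬ Com Y (cj e Y)) :
    ∃ P, NC Ω P X ∧ NC Ω P Y ∧ ∀ w ∈ om Y, e * w * e⁻¹ * w⁻¹ ∈ om P := by
  obtain ⟨y, hy, yn⟩ := h.ex_nom hY
  obtain ⟨k, -, n1, n2, -, n3⟩ := h.d_x1 hX nv he ⟨hY, h.conj Y hY e, fun c => n (c ▸ h.comm Y hY),
    h.adj_of_vc hY (h.conj Y hY e) (hc e he), n⟩ hy yn
  exact ⟨_, n1, n2, n3⟩

theorem Cl.d_ex (h : Cl Ω) (hX : X ∈ Ω) (hY : Y ∈ Ω) (nv : ¬ Com (om X) (om Y)) :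
    ∃ e ∈ om X, ¬ Com Y (cj e Y) := by
  obtain ⟨a, ha, b, hb, a2, b2, a1, b1, ab⟩ := h.four X hX
  by_contra! hn
  have ha' := mem_om_of ha a2
  have hb' := mem_om_of hb b2
  exact (h.lemD hX hY nv ha' hb' a1 (hn a ha') (hn b hb') (hn _ (mul_mem ha' hb'))).elim b1 ab.symm

theorem Cl.lemX (h : Cl Ω) (hX : X ∈ Ω) (hY : Y ∈ Ω) (nv : ¬ Com (om X) (om Y))
    (hc : ∀ e ∈ om X, Com (om Y) (om (cj e Y))) : ∃ P, Exc Ω P X Y := by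
  have nv' : ¬ Com (om Y) (om X) := fun c => nv c.symm
  obtain ⟨e, he, n⟩ := h.d_ex hX hY nv
  obtain ⟨P, p1, p2, p3⟩ := h.d_x0 hX hY nv hc he n
  have e1 : e ≠ 1 := fun c => n (by rw [c, cj_one]; exact h.comm Y hY)
  have hc' : ∀ w ∈ om Y, Com (om X) (om (cj w X)) := fun w hw => by
    refine h.vc_of_adj hX (h.conj X hX w) (h.adj_of_cm hX (om_le X he) e1 (conj_mem_cj.2 (om_le X he)) (cne w e1) ?_)
    have k : Commute (e * w * e⁻¹ * w⁻¹) e := p1.vc h _ (p3 w hw) e he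
    have := (k.inv_left.mul_left (Commute.refl e)).eq
    rwa [show (e * w * e⁻¹ * w⁻¹)⁻¹ * e = w * e * w⁻¹ by group] at this
  obtain ⟨w, hw, n'⟩ := h.d_ex hY hX nv'
  obtain ⟨P', q1, -, q3⟩ := h.d_x0 hY hX nv' hc' hw n'
  have w1 : w ≠ 1 := fun c => n' (by rw [c, cj_one]; exact h.comm X hX)
  have ne : ∀ a ∈ om X, a ≠ 1 → a * w * a⁻¹ * w⁻¹ ≠ 1 := fun a ha a1 c =>
    a1 (h.d_nc hX hY nv (om_le X ha) (om_le Y hw) w1 (mul_inv_eq_iff_eq_mul.1 (mul_inv_eq_one.1 c)).symm)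
  have q4 : ∀ a ∈ om X, a * w * a⁻¹ * w⁻¹ ∈ om P' := fun a ha => by simpa [mul_assoc] using inv_mem (q3 a ha)
  obtain rfl : P = P' := h.ti P p1.l P' q1.l _ (om_le _ (p3 w hw)) (om_le _ (q4 e he)) (ne e he e1)
  refine ⟨P, p1, p2, nv, fun a ha => ?_⟩
  by_cases a1 : a = 1
  · intro v _
    rw [a1]; simp
  have n2 : ¬ Com Y (cj a Y) := fun c => ne a ha a1 ((p2.symm h).eq_one' h (q4 a ha)
    (mul_mem (c.symm.le_cent (conj_mem_cj.2 (om_le Y hw))) (inv_mem ((h.comm Y hY).le_cent (om_le Y hw)))))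
  obtain ⟨P', r1, -, r3⟩ := h.d_x0 hX hY nv hc ha n2
  rwa [h.ti P p1.l P' r1.l _ (om_le _ (q4 a ha)) (om_le _ (r3 w hw)) (ne a ha a1)]

theorem Cl.exc_of_norm (h : Cl Ω) (e1 : NC Ω P X) (e2 : NC Ω P Y) (nv : ¬ Com (om X) (om Y))
    (hn : om Y ≤ 𝒩(om P ⊔ om X)) : Exc Ω P X Y := by
  refine ⟨e1, e2, nv, fun e he w hw => ?_⟩
  obtain ⟨x, hx, xn⟩ := h.ex_nom e1.l
  have he' : e ∈ om P ⊔ om X := mem_sup_right he
  refine e1.cent_A h ?_ hx xn (h.comm_cent (e1.e4 h) e1.l ((e1.vc h).symm.le_cent he) ((e2.vc h).symm.le_cent hw) x hx)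
  simpa [mul_assoc] using mul_mem he' (nm (hn hw) (inv_mem he'))

end Cfsg.Agent.TIA
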