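import Cfsg.Agent.H74.SqA

/-! Abelian TI subgroups normal in a maximal 2-local subgroup (notes/TIA.md): definitions. -/

set_option autoImplicit false
set_option linter.unusedSectionVars false

namespace Cfsg.Agent.TIA

open Subgroup Cfsg.Agent.H49
open Cfsg.Agent.H74.Sq (nm nm' cne cne' two_of_sq comm_of_sq)

universe u

variable {G : Type u} [Group G]

/-- `V X = Ω₁(X)`. -/
def om (X : Subgroup G) : Subgroup G := closure {x | x ∈ X ∧ x * x = 1}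

/-- Elementwise commuting. -/
def Com (X Y : Subgroup G) : Prop := ∀ x ∈ X, ∀ y ∈ Y, x * y = y * x

/-- `Y` meets `N(X)` nontrivially. -/
def Adj (X Y : Subgroup G) : Prop := ∃ y ∈ Y, y ≠ 1 ∧ y ∈ 𝒩(X)

/-- A conjugacy class of abelian TI 2-subgroups, noncyclic and not elementary abelian. -/
structure Cl (Ω : Set (Subgroup G)) : Prop where
  conj : ∀ X ∈ Ω, ∀ g : G, cj g X ∈ Ω
  tr : ∀ X ∈ Ω, ∀ Y ∈ Ω, ∃ g : G, cj g X = Y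
  two : ∀ X ∈ Ω, IsPGroup 2 X
  comm : ∀ X ∈ Ω, Com X X
  ti : ∀ X ∈ Ω, ∀ Y ∈ Ω, ∀ x ∈ X, x ∈ Y → x ≠ 1 → X = Y
  nea : ∀ X ∈ Ω, ∃ x ∈ X, x * x ≠ 1
  four : ∀ X ∈ Ω, ∃ a ∈ X, ∃ b ∈ X, a * a = 1 ∧ b * b = 1 ∧ a ≠ 1 ∧ b ≠ 1 ∧ a ≠ b

/-- Noncommuting edge. -/
structure NC (Ω : Set (Subgroup G)) (X Y : Subgroup G) : Prop where
  l : X ∈ Ω
  r : Y ∈ Ω
  ne : X ≠ Y
  adj : Adj X Y
  nc : ¬ Com X Y

/-- Commuting edge. -/
structure CE (Ω : Set (Subgroup G)) (X Y : Subgroup G) : Prop where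
  l : X ∈ Ω
  r : Y ∈ Ω
  ne : X ≠ Y
  com : Com X Y

/-- Exponent four. -/
def E4 (Ω : Set (Subgroup G)) : Prop := ∀ X ∈ Ω, ∀ x ∈ X, x * x ∈ om X

/-- Every involution of a member is a square in it. -/
def Sq (Ω : Set (Subgroup G)) : Prop := ∀ X ∈ Ω, ∀ v ∈ om X, ∃ x ∈ X, x * x = v

/-- No commuting edges. -/
def NoCE (Ω : Set (Subgroup G)) : Prop := ∀ X Y, ¬ CE Ω X Y

/-- The exceptional configuration. -/
structure Exc (Ω : Set (Subgroup G)) (P X Y : Subgroup G) : Prop where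
  l : NC Ω P X
  r : NC Ω P Y
  nv : ¬ Com (om X) (om Y)
  comm : ∀ e ∈ om X, ∀ w ∈ om Y, e * w * e⁻¹ * w⁻¹ ∈ om P

/-- `Q = O₂(N(X))`, `N(X)` is a maximal 2-local subgroup of characteristic 2. -/
structure Loc (X Q : Subgroup G) : Prop where
  two : IsPGroup 2 Q
  le : Q ≤ 𝒩(X)
  norm : 𝒩(X) ≤ 𝒩(Q)
  core : ∀ K : Subgroup G, IsPGroup 2 K → K ≤ 𝒩(X) → 𝒩(X) ≤ 𝒩(K) → K ≤ Q
  cent : 𝒞(Q) ≤ Q
  max : ∀ K : Subgroup G, IsPGroup 2 K → K ≠ ⊥ → 𝒩(X) ≤ 𝒩(K) → 𝒩(K) ≤ 𝒩(X)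

/-- The global hypothesis. -/
structure Hy (Ω : Set (Subgroup G)) : Prop extends Cl Ω where
  loc : ∀ X ∈ Ω, ∃ Q, Loc X Q
  o2 : ∀ K : Subgroup G, K.Normal → IsPGroup 2 K → K = ⊥

/-- The final configuration at `B`: `S = B ⊔ om X` is of type `L₃(4)`. -/
structure L34 (Ω : Set (Subgroup G)) (B X Y : Subgroup G) : Prop where
  exc : Exc Ω B X Y
  noce : NoCE Ω
  sq : Sq Ω
  card : Nat.card (om B) = 4
  leY : om Y ≤ B ⊔ om X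
  leX : om X ≤ B ⊔ om Y
  nb : ∀ Z, NC Ω B Z → om Z ≤ om B ⊔ om X ∨ om Z ≤ om B ⊔ om Y
  normS : 𝒩(B ⊔ om X) = 𝒩(B)
  centS : 𝒞(B ⊔ om X) ≤ om B
  centA : 𝒞(om B ⊔ om X) ≤ om B ⊔ om X

variable {Ω : Set (Subgroup G)} {X Y Z P : Subgroup G}

theorem om_le (X : Subgroup G) : om X ≤ X := (closure_le _).2 fun _ h => h.1

theorem mem_om_of {x : G} (hx : x ∈ X) (h2 : x * x = 1) : x ∈ om X := subset_closure ⟨hx, h2⟩

theorem Com.symm (h : Com X Y) : Com Y X := fun y hy x hx => (h x hx y hy).symm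

theorem Com.mono (h : Com X Y) {X' Y' : Subgroup G} (h1 : X' ≤ X) (h2 : Y' ≤ Y) : Com X' Y' :=
  fun x hx y hy => h x (h1 hx) y (h2 hy)

theorem Com.toV (h : Com X Y) : Com (om X) (om Y) := h.mono (om_le _) (om_le _)

theorem Com.le_cent (h : Com X Y) : X ≤ 𝒞(Y) := fun x hx y hy => (h x hx y hy).symm

theorem com_of_le (h : X ≤ 𝒞(Y)) : Com X Y := fun x hx y hy => (h hx y hy).symm

theorem Com.map (h : Com X Y) (g : G) : Com (cj g X) (cj g Y) :=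
  com_of_le (by rw [← cj_centralizer]; exact cj_mono g h.le_cent)

theorem Com.sup (h : Com X Z) (h' : Com Y Z) : Com (X ⊔ Y) Z :=
  com_of_le (sup_le h.le_cent h'.le_cent)

theorem Adj.map (h : Adj X Y) (g : G) : Adj (cj g X) (cj g Y) := by
  obtain ⟨y, hy, y1, yn⟩ := h
  exact ⟨_, conj_mem_cj.2 hy, cne g y1, by rw [← cj_normalizer]; exact conj_mem_cj.2 yn⟩

theorem mem_om' (hc : Com X X) {v : G} : v ∈ om X ↔ v ∈ X ∧ v * v = 1 := by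
  refine ⟨fun h => ?_, fun h => mem_om_of h.1 h.2⟩
  induction h using closure_induction with
  | mem x hx => exact hx
  | one => exact ⟨one_mem _, mul_one _⟩
  | mul x y _ _ hx hy =>
    refine ⟨mul_mem hx.1 hy.1, ?_⟩
    rw [mul_assoc, ← mul_assoc y, ← hc x hx.1 y hy.1, mul_assoc, hy.2, mul_one, hx.2]
  | inv x _ hx => exact ⟨inv_mem hx.1, by rw [← mul_inv_rev, hx.2, inv_one]⟩

theorem cj_om_le (g : G) (X : Subgroup G) : cj g (om X) ≤ om (cj g X) := by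
  rw [cj_le_iff]
  refine (closure_le _).2 fun x hx => mem_cj.2 (mem_om_of ?_ ?_)
  · simpa using conj_mem_cj.2 hx.1
  · rw [inv_inv, show g * x * g⁻¹ * (g * x * g⁻¹) = g * (x * x) * g⁻¹ by group, hx.2]; group

theorem cj_om (g : G) (X : Subgroup G) : cj g (om X) = om (cj g X) := by
  refine le_antisymm (cj_om_le g X) ?_
  have := cj_mono g (cj_om_le g⁻¹ (cj g X))
  rwa [cj_cj_inv, cj_inv_cj] at this

theorem norm_om {g : G} (hg : g ∈ 𝒩(X)) : g ∈ 𝒩(om X) :=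
  mem_norm_iff_cj.2 (by rw [cj_om, cj_eq_of_mem_norm hg])

theorem NC.map (h : Cl Ω) (e : NC Ω X Y) (g : G) : NC Ω (cj g X) (cj g Y) :=
  ⟨h.conj _ e.l g, h.conj _ e.r g, fun c => e.ne (cj_inj.1 c), e.adj.map g, fun c => e.nc (by
    simpa only [cj_inv_cj] using c.map g⁻¹)⟩

theorem NC.map' (h : Cl Ω) (e : NC Ω X Y) {g : G} (hg : g ∈ 𝒩(X)) : NC Ω X (cj g Y) := by
  simpa only [cj_eq_of_mem_norm hg] using e.map h g

theorem CE.symm (e : CE Ω X Y) : CE Ω Y X := ⟨e.r, e.l, e.ne.symm, e.com.symm⟩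

theorem CE.map (h : Cl Ω) (e : CE Ω X Y) (g : G) : CE Ω (cj g X) (cj g Y) :=
  ⟨h.conj _ e.l g, h.conj _ e.r g, fun c => e.ne (cj_inj.1 c), e.com.map g⟩

theorem CE.map' (h : Cl Ω) (e : CE Ω X Y) {g : G} (hg : g ∈ 𝒩(X)) : CE Ω X (cj g Y) := by
  simpa only [cj_eq_of_mem_norm hg] using e.map h g

theorem CE.le (e : CE Ω X Y) : Y ≤ 𝒩(X) := e.com.symm.le_cent.trans (cent_le_norm _)

theorem Exc.map (h : Cl Ω) (e : Exc Ω P X Y) (g : G) : Exc Ω (cj g P) (cj g X) (cj g Y) := by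
  refine ⟨e.l.map h g, e.r.map h g, fun c => e.nv ?_, fun a ha w hw => ?_⟩
  · simpa only [← cj_om, cj_inv_cj] using c.map g⁻¹
  · rw [← cj_om] at ha hw ⊢
    rw [mem_cj] at ha hw ⊢
    convert e.comm _ ha _ hw using 1
    group

theorem Exc.symm (e : Exc Ω P X Y) : Exc Ω P Y X :=
  ⟨e.r, e.l, fun c => e.nv c.symm, fun w hw a ha => by
    simpa [mul_assoc] using inv_mem (e.comm a ha w hw)⟩

namespace Cl

theorem mem_om (h : Cl Ω) (hX : X ∈ Ω) {v : G} : v ∈ om X ↔ v ∈ X ∧ v * v = 1 :=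
  mem_om' (h.comm X hX)

theorem om_sq (h : Cl Ω) (hX : X ∈ Ω) {v : G} (hv : v ∈ om X) : v * v = 1 := ((h.mem_om hX).1 hv).2

theorem om_inv (h : Cl Ω) (hX : X ∈ Ω) {v : G} (hv : v ∈ om X) : v⁻¹ = v :=
  inv_eq_of_mul_eq_one_right (h.om_sq hX hv)

theorem om_two (h : Cl Ω) (hX : X ∈ Ω) : IsPGroup 2 (om X) := (h.two X hX).to_le (om_le X)

theorem norm_of (h : Cl Ω) (hX : X ∈ Ω) {x g : G} (hx : x ∈ X) (h1 : x ≠ 1)
    (hg : g * x * g⁻¹ ∈ X) : g ∈ 𝒩(X) :=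
  mem_norm_iff_cj.2 (h.ti _ (h.conj X hX g) _ hX _ (conj_mem_cj.2 hx) hg (cne g h1))

theorem norm_of_cm (h : Cl Ω) (hX : X ∈ Ω) {x g : G} (hx : x ∈ X) (h1 : x ≠ 1)
    (hg : g * x = x * g) : g ∈ 𝒩(X) :=
  h.norm_of hX hx h1 (by rwa [hg, mul_inv_cancel_right])

theorem eq_one (h : Cl Ω) (hX : X ∈ Ω) (hY : Y ∈ Ω) (hne : X ≠ Y) {x : G} (hx : x ∈ X)
    (hy : x ∈ Y) : x = 1 := by_contra fun c => hne (h.ti X hX Y hY x hx hy c)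

theorem ex_om (h : Cl Ω) (hX : X ∈ Ω) : ∃ v ∈ om X, v ≠ 1 := by
  obtain ⟨a, ha, -, -, a2, -, a1, -⟩ := h.four X hX
  exact ⟨a, mem_om_of ha a2, a1⟩

theorem ex_nom (h : Cl Ω) (hX : X ∈ Ω) : ∃ x ∈ X, x ∉ om X := by
  obtain ⟨x, hx, x2⟩ := h.nea X hX
  exact ⟨x, hx, fun c => x2 (h.om_sq hX c)⟩

theorem cent_om_le (h : Cl Ω) (hX : X ∈ Ω) : 𝒞(om X) ≤ 𝒩(X) := fun g hg => by
  obtain ⟨v, hv, v1⟩ := h.ex_om hX
  exact h.norm_of_cm hX (om_le X hv) v1 (hg v hv).symm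

theorem norm_om_eq (h : Cl Ω) (hX : X ∈ Ω) : 𝒩(om X) = 𝒩(X) := by
  refine le_antisymm (fun g hg => ?_) fun g hg => norm_om hg
  obtain ⟨v, hv, v1⟩ := h.ex_om hX
  exact h.norm_of hX (om_le X hv) v1 (om_le X (nm hg hv))

theorem adj_of_cm (h : Cl Ω) (hX : X ∈ Ω) {x y : G} (hx : x ∈ X) (x1 : x ≠ 1) (hy : y ∈ Y)
    (y1 : y ≠ 1) (hc : y * x = x * y) : Adj X Y := ⟨y, hy, y1, h.norm_of_cm hX hx x1 hc⟩

theorem adj_of_vc (h : Cl Ω) (hX : X ∈ Ω) (hY : Y ∈ Ω) (hc : Com (om X) (om Y)) : Adj X Y := by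
  obtain ⟨v, hv, v1⟩ := h.ex_om hX
  obtain ⟨w, hw, w1⟩ := h.ex_om hY
  exact h.adj_of_cm hX (om_le _ hv) v1 (om_le _ hw) w1 (hc v hv w hw).symm

theorem card_eq (h : Cl Ω) (hX : X ∈ Ω) (hY : Y ∈ Ω) : Nat.card X = Nat.card Y := by
  obtain ⟨g, rfl⟩ := h.tr X hX Y hY
  rw [card_cj]

theorem card_om_eq (h : Cl Ω) (hX : X ∈ Ω) (hY : Y ∈ Ω) : Nat.card (om X) = Nat.card (om Y) := by
  obtain ⟨g, rfl⟩ := h.tr X hX Y hY
  rw [← cj_om, card_cj]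

/-- an adjacent pair is equal, a commuting edge or a noncommuting edge -/
theorem tri (hX : X ∈ Ω) (hY : Y ∈ Ω) (ha : Adj X Y) : X = Y ∨ CE Ω X Y ∨ NC Ω X Y := by
  by_cases c : X = Y
  · exact Or.inl c
  by_cases c' : Com X Y
  · exact Or.inr (Or.inl ⟨hX, hY, c, c'⟩)
  · exact Or.inr (Or.inr ⟨hX, hY, c, ha, c'⟩)

end Cl

theorem Loc.self_le (h : Cl Ω) (hX : X ∈ Ω) {Q : Subgroup G} (l : Loc X Q) : X ≤ Q :=
  l.core X (h.two X hX) le_normalizer le_rfl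

end Cfsg.Agent.TIA
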