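import Cfsg.Agent.TIA.Defs
import Cfsg.Agent.H59.TI
import Cfsg.Agent.H44.FourNorm
import Cfsg.Agent.H49.Prod

/-! notes/TIA.md, section Edge. -/

set_option autoImplicit false
set_option linter.unusedSectionVars false
set_option linter.unusedVariables false

namespace Cfsg.Agent.TIA

open Subgroup Cfsg.Agent.H49
open Cfsg.Agent.H74.Sq (nm nm' fixp ex_ne ne_bot_of cne cne' two_of_sq comm_of_sq m1 m2)
open scoped commutatorElement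

universe u

variable {G : Type u} [Group G] [Finite G] {Ω : Set (Subgroup G)} {B Q P X Y Z : Subgroup G}

theorem dih {D : Type*} [Group D] [Finite D] {a b : D} (a2 : a * a = 1) (b2 : b * b = 1) :
    (∃ j : ℕ, ((a * b) ^ j)⁻¹ * a * (a * b) ^ j * a * (((a * b) ^ j)⁻¹ * a * (a * b) ^ j)⁻¹ = b) ∨
    ∃ m j : ℕ, (a * b) ^ m ≠ 1 ∧ (a * b) ^ m * (a * b) ^ m = 1 ∧ a * (a * b) ^ m = (a * b) ^ m * a ∧
      b * (a * b) ^ m = (a * b) ^ m * b ∧ (a * (a * b) ^ m = ((a * b) ^ j)⁻¹ * a * (a * b) ^ j ∨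
      a * (a * b) ^ m = ((a * b) ^ j)⁻¹ * b * (a * b) ^ j) := by
  have ai : a⁻¹ = a := inv_eq_of_mul_eq_one_right a2
  have bi : b⁻¹ = b := inv_eq_of_mul_eq_one_right b2
  set r := a * b with hr
  have eb : b = a * r := by rw [hr, ← mul_assoc, a2, one_mul]
  have k0 : a * r * a⁻¹ = r⁻¹ := by rw [← eb, hr, mul_inv_rev, bi]
  have k : ∀ j : ℕ, (r ^ j)⁻¹ * a = a * r ^ j := fun j => by
    rw [← inv_pow, ← k0, conj_pow, inv_mul_cancel_right]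
  rcases Nat.even_or_odd (orderOf r) with ⟨m, hm⟩ | ho
  · have hp := orderOf_pos r
    have z1 : r ^ m ≠ 1 := pow_ne_one_of_lt_orderOf (by omega) (by omega)
    have z2 : r ^ m * r ^ m = 1 := by rw [← pow_add, ← hm, pow_orderOf_eq_one]
    have za : a * r ^ m = r ^ m * a := by rw [← k, inv_eq_of_mul_eq_one_right z2]
    have zb : b * r ^ m = r ^ m * b := by
      rw [eb, mul_assoc, ← pow_succ', pow_succ, ← mul_assoc, za, mul_assoc]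
    obtain ⟨j, rfl | rfl⟩ := Nat.even_or_odd' m
    · exact Or.inr ⟨_, j, z1, z2, za, zb, Or.inl (by rw [k, two_mul, pow_add, mul_assoc])⟩
    · refine Or.inr ⟨_, j, z1, z2, za, zb, Or.inr ?_⟩
      rw [eb, ← mul_assoc, k]
      simp only [mul_assoc, ← pow_succ', ← pow_add]
      congr 2; omega
  · obtain ⟨j, hj⟩ := exists_pow_eq_self_of_coprime (x := r) (n := 4)
      (Nat.Coprime.pow_left 2 (Nat.coprime_two_left.2 ho))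
    refine Or.inl ⟨j, ?_⟩
    have e : ∀ i : ℕ, a * r ^ i * a = (r ^ i)⁻¹ := fun i => by
      rw [← k, mul_assoc, a2, mul_one]
    rw [k, mul_assoc a, ← pow_add, e, mul_inv_rev, ai, k, ← mul_assoc, k, mul_assoc, ← pow_add, eb,
      show j + j + (j + j) = 4 * j by omega, pow_mul, hj]

theorem fix2 {A : Type*} [Group A] (hA : ∀ a : A, a * a = 1) {a z : MulAut A} (a2 : a * a = 1)
    (z2 : z * z = 1) (z1 : z ≠ 1) (hc : a * z = z * a) : ∃ f : A, f ≠ 1 ∧ a f = f ∧ z f = f := by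
  have cm : ∀ x y : A, x * y = y * x := fun x y => by
    rw [← inv_eq_of_mul_eq_one_right (hA (x * y)), mul_inv_rev, inv_eq_of_mul_eq_one_right (hA x),
      inv_eq_of_mul_eq_one_right (hA y)]
  have key : ∀ t : MulAut A, t * t = 1 → ∀ x : A, t x ≠ x → x * t x ≠ 1 ∧ t (x * t x) = x * t x :=
    fun t t2 x hx => ⟨fun c => hx (by
      rw [← inv_eq_of_mul_eq_one_right c, inv_eq_of_mul_eq_one_right (hA x)]), by
      rw [map_mul, ← MulAut.mul_apply, t2, MulAut.one_apply, cm]⟩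
  obtain ⟨x, hx⟩ : ∃ x, z x ≠ x := by
    by_contra c
    push Not at c
    exact z1 (MulEquiv.ext c)
  obtain ⟨f1, f2⟩ := key z z2 x hx
  by_cases c : a (x * z x) = x * z x
  · exact ⟨_, f1, c, f2⟩
  · refine ⟨_, (key a a2 _ c).1, (key a a2 _ c).2, ?_⟩
    rw [map_mul z, ← MulAut.mul_apply _ z a, ← hc, MulAut.mul_apply, f2]

namespace Cl

theorem cmI (h : Cl Ω) (hX : X ∈ Ω) (hY : Y ∈ Ω) (ne : X ≠ Y) {x y : G} (hx : x ∈ X ⊓ 𝒩(Y))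
    (hy : y ∈ Y ⊓ 𝒩(X)) : x * y = y * x := by
  have := h.eq_one hX hY ne (x := x * y * x⁻¹ * y⁻¹)
    (by rw [mul_assoc, mul_assoc, ← mul_assoc y]; exact mul_mem hx.1 (nm hy.2 (inv_mem (m1 hx))))
    (mul_mem (nm hx.2 hy.1) (inv_mem (m1 hy)))
  rwa [mul_inv_eq_one, mul_inv_eq_iff_eq_mul] at this

theorem card_le (h : Cl Ω) (hX : X ∈ Ω) (hY : Y ∈ Ω) :
    Nat.card ↥(Y ⊓ 𝒩(X)) ≤ Nat.card ↥(X ⊓ 𝒩(Y)) := by
  haveI : Fact (Nat.Prime 2) := ⟨Nat.prime_two⟩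
  by_cases c : X ≤ 𝒩(Y)
  · rw [inf_eq_left.2 c, h.card_eq hX hY]
    exact card_le_of_le inf_le_left
  obtain ⟨b, hb, bn, hc⟩ := H44.exists_not_mem_commutator_mem (S := Y ⊓ 𝒩(X))
    (h.two Y hY).to_inf_left X (h.two X hX) inf_le_right c
  refine Nat.card_le_card_of_injective (fun t => ⟨⁅b, (t : G)⁆, mem_inf.2 ⟨?_, hc _ t.2⟩⟩)
    fun t t' e => ?_
  · rw [commutatorElement_def, mul_assoc, mul_assoc, ← mul_assoc (t : G)]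
    exact mul_mem hb (nm t.2.2 (inv_mem hb))
  · have e' : ⁅b, (t : G)⁆ = ⁅b, (t' : G)⁆ := congrArg Subtype.val e
    by_contra ne
    refine bn (h.norm_of_cm hY (mul_mem (inv_mem (m1 t'.2)) t.2.1)
      (fun c => ne (Subtype.ext (inv_mul_eq_one.1 c).symm)) ?_)
    calc b * ((t' : G)⁻¹ * t) = (t' : G)⁻¹ * (⁅b, (t' : G)⁆)⁻¹ * b * t := by
          rw [commutatorElement_def]; group
      _ = _ := by rw [← e', commutatorElement_def]; group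

theorem cardI (h : Cl Ω) (hX : X ∈ Ω) (hY : Y ∈ Ω) :
    Nat.card ↥(Y ⊓ 𝒩(X)) = Nat.card ↥(X ⊓ 𝒩(Y)) := le_antisymm (h.card_le hX hY) (h.card_le hY hX)

theorem ex4 (h : Cl Ω) (hX : X ∈ Ω) : ∃ x ∈ X, x * x ≠ 1 ∧ x * x * (x * x) = 1 := by
  obtain ⟨x, hx, x2⟩ := h.nea X hX
  obtain ⟨k, hk⟩ := h.two X hX ⟨x, hx⟩
  obtain ⟨j, h1, h2⟩ := H59.exists_pow_two_pow (x := x) (P := fun y => y * y = 1) (mul_one _) x2
    ⟨k, congrArg Subtype.val hk⟩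
  exact ⟨_, pow_mem hx _, h1, h2⟩

end Cl

theorem Cl.adj_symm (h : Cl Ω) (hX : X ∈ Ω) (hY : Y ∈ Ω) (a : Adj X Y) : Adj Y X := by
  obtain ⟨y, hy, y1, yn⟩ := a
  have := h.card_le hX hY
  have h1 : 1 < Nat.card ↥(Y ⊓ 𝒩(X)) := (one_lt_card_iff_ne_bot _).2 (ne_bot_of ⟨hy, yn⟩ y1)
  obtain ⟨x, hx, x1⟩ := ex_ne ((one_lt_card_iff_ne_bot _).1 (h1.trans_le this))
  exact ⟨x, hx.1, x1, hx.2⟩

theorem NC.symm (h : Cl Ω) (e : NC Ω X Y) : NC Ω Y X :=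
  ⟨e.r, e.l, e.ne.symm, h.adj_symm e.l e.r e.adj, fun c => e.nc c.symm⟩

theorem NC.not_le (h : Cl Ω) (e : NC Ω X Y) : ¬ X ≤ 𝒩(Y) := fun c => by
  have : Y ⊓ 𝒩(X) = Y := eq_of_le_of_card_ge inf_le_left (by
    rw [h.cardI e.l e.r, inf_eq_left.2 c, h.card_eq e.l e.r])
  exact e.nc fun x hx y hy => h.cmI e.l e.r e.ne ⟨hx, c hx⟩ (this.ge hy)

theorem NC.elem (h : Cl Ω) (e : NC Ω X Y) {t : G} (ht : t ∈ Y ⊓ 𝒩(X)) : t * t = 1 := by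
  by_contra t2
  obtain ⟨k, hk⟩ := h.two Y e.r ⟨t, ht.1⟩
  have := H59.comm_of_sq (h.two X e.l) ⟨⟨fun a b => Subtype.ext (h.comm X e.l a a.2 b b.2)⟩⟩
    ⟨k, congrArg Subtype.val hk⟩ ht.2 fun b hb hc => (h.cmI e.l e.r e.ne
      ⟨hb, h.norm_of_cm e.r (mul_mem ht.1 ht.1) t2 hc.symm⟩ ht).symm
  exact e.not_le h fun x hx => h.norm_of_cm e.r ht.1 (fun c => t2 (by rw [c, mul_one]))
    (this x hx).symm

theorem NC.memI (h : Cl Ω) (e : NC Ω X Y) {a : G} : a ∈ X ⊓ 𝒩(Y) ⊔ Y ⊓ 𝒩(X) ↔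
    ∃ v ∈ X ⊓ 𝒩(Y), ∃ w ∈ Y ⊓ 𝒩(X), a = v * w :=
  mem_sup_of_norm_right (norm_of_cent fun x hx y hy => (h.cmI e.l e.r e.ne hx hy).symm)

theorem NC.sqI (h : Cl Ω) (e : NC Ω X Y) {a : G} (ha : a ∈ X ⊓ 𝒩(Y) ⊔ Y ⊓ 𝒩(X)) : a * a = 1 := by
  obtain ⟨v, hv, w, hw, rfl⟩ := (e.memI h).1 ha
  rw [mul_assoc, ← mul_assoc w, ← h.cmI e.l e.r e.ne hv hw, mul_assoc, e.elem h hw, mul_one,
    (e.symm h).elem h hv]

theorem NC.comI (h : Cl Ω) (e : NC Ω X Y) {x t : G} (hx : x ∈ X) (x2 : x * x ∈ 𝒩(Y))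
    (ht : t ∈ Y ⊓ 𝒩(X)) : x * t * x⁻¹ * t⁻¹ ∈ X ⊓ 𝒩(Y) := by
  have hy : t * x⁻¹ * t⁻¹ ∈ X := nm ht.2 (inv_mem hx)
  have e0 : x * t * x⁻¹ * t⁻¹ = x * (t * x⁻¹ * t⁻¹) := by group
  refine ⟨e0 ▸ mul_mem hx hy, ?_⟩
  by_cases t1 : t = 1
  · simp [t1]
  have t2 := e.elem h ht
  have ti : t⁻¹ = t := inv_eq_of_mul_eq_one_right t2
  have c1 := h.cmI e.l e.r e.ne ⟨mul_mem hx hx, x2⟩ ht
  have c2 := h.comm X e.l _ hx _ hy
  refine h.norm_of_cm e.r ht.1 t1 ?_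
  rw [ti] at c2 ⊢
  calc x * t * x⁻¹ * t * t = x * t * x⁻¹ := by rw [mul_assoc _ t t, t2, mul_one]
    _ = x⁻¹ * (x * x * t) * x⁻¹ := by group
    _ = x⁻¹ * t * x := by rw [c1]; group
    _ = t * (t * x⁻¹ * t * x) := by simp only [← mul_assoc, t2, one_mul]
    _ = _ := by rw [← c2]; group

theorem NC.normI (h : Cl Ω) (e : NC Ω X Y) {x : G} (hx : x ∈ X) (x2 : x * x ∈ 𝒩(Y)) :
    x ∈ 𝒩(X ⊓ 𝒩(Y) ⊔ Y ⊓ 𝒩(X)) := by
  refine mem_norm_of_cj_le ?_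
  rw [cj_sup]
  refine sup_le (fun a ha => ?_) fun a ha => ?_
  · obtain ⟨v, hv, rfl⟩ := mem_cj'.1 ha
    rw [h.comm X e.l x hx v hv.1, mul_inv_cancel_right]
    exact mem_sup_left hv
  · obtain ⟨t, ht, rfl⟩ := mem_cj'.1 ha
    simpa using mul_mem (mem_sup_left (e.comI h hx x2 ht)) (mem_sup_right ht)

theorem NC.fixI (h : Cl Ω) (e : NC Ω X Y) {x a : G} (hx : x ∈ X) (xn : x ∉ 𝒩(Y))
    (ha : a ∈ X ⊓ 𝒩(Y) ⊔ Y ⊓ 𝒩(X)) (hc : x * a = a * x) : a ∈ X ⊓ 𝒩(Y) := by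
  obtain ⟨v, hv, w, hw, rfl⟩ := (e.memI h).1 ha
  by_cases w1 : w = 1
  · simpa [w1] using hv
  rw [← mul_assoc, h.comm X e.l x hx v hv.1, mul_assoc, mul_assoc, mul_right_inj] at hc
  exact absurd (h.norm_of_cm e.r hw.1 w1 hc) xn

theorem NC.exI (h : Cl Ω) (e : NC Ω X Y) : ∃ t ∈ Y ⊓ 𝒩(X), t ≠ 1 := by
  obtain ⟨t, ht, t1, tn⟩ := e.adj
  exact ⟨t, ⟨ht, tn⟩, t1⟩

theorem NC.third (h : Cl Ω) (e : NC Ω X Y) {W W0 : Subgroup G} (hW : W ∈ Ω) (ne : W ≠ X)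
    (h1 : W0 ≤ W) (h2 : W0 ≤ X ⊓ 𝒩(Y) ⊔ Y ⊓ 𝒩(X)) (hc : Nat.card W0 = Nat.card ↥(X ⊓ 𝒩(Y))) :
    W ⊓ 𝒩(X) ≤ W0 := by
  have hA : X ⊓ 𝒩(Y) ⊔ Y ⊓ 𝒩(X) ≤ 𝒩(X) := sup_le (inf_le_left.trans le_normalizer) inf_le_right
  obtain ⟨x, hx, x1⟩ := (e.symm h).exI h
  obtain ⟨a, ha, a1⟩ := ex_ne ((one_lt_card_iff_ne_bot W0).1
    (hc ▸ (one_lt_card_iff_ne_bot _).2 (ne_bot_of hx x1)))
  obtain ⟨v, hv, w, hw, rfl⟩ := (e.memI h).1 (h2 ha)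
  have w1 : w ≠ 1 := by
    rintro rfl
    exact a1 (h.eq_one hW e.l ne (h1 ha) (by simpa using hv.1))
  refine (eq_of_le_of_card_ge (le_inf h1 (h2.trans hA)) ?_).ge
  rw [h.cardI e.l hW, hc]
  refine card_le_of_le fun y hy => ⟨hy.1, h.norm_of_cm e.r hw.1 w1 ?_⟩
  have := h.cmI e.l hW ne.symm hy ⟨h1 ha, hA (h2 ha)⟩
  rwa [← mul_assoc, h.comm X e.l y hy.1 v hv.1, mul_assoc, mul_assoc, mul_right_inj] at this

theorem NC.dihed (h : Cl Ω) (e : NC Ω X Y) {x y : G} (hx : x ∈ X) (xn : x ∉ 𝒩(Y))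
    (x2 : x * x ∈ 𝒩(Y)) (hy : y ∈ Y) (yn : y ∉ 𝒩(X)) (y2 : y * y ∈ 𝒩(X)) :
    ∃ k ∈ closure ({x, y} : Set G), cj (k * x * k⁻¹) X = Y ∧ cj (k * x * k⁻¹) Y = X ∧
      k * x * k⁻¹ * x * (k * x * k⁻¹)⁻¹ * y⁻¹ ∈ Y ⊓ 𝒩(X) := by
  have e' := e.symm h
  have hxA := e.normI h hx x2
  have hyA := e'.normI h hy y2
  rw [sup_comm] at hyA
  have hfY : ∀ {a}, a ∈ X ⊓ 𝒩(Y) ⊔ Y ⊓ 𝒩(X) → y * a = a * y → a ∈ Y ⊓ 𝒩(X) := fun ha =>
    e'.fixI h hy yn (by rwa [sup_comm])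
  have hAX : X ⊓ 𝒩(Y) ⊔ Y ⊓ 𝒩(X) ≤ 𝒩(X) := sup_le (inf_le_left.trans le_normalizer) inf_le_right
  have hsq := @NC.sqI _ _ _ _ _ _ h e
  have hfX := @NC.fixI _ _ _ _ _ _ h e x
  have h3 := @NC.third _ _ _ _ _ _ h e
  have hl : X ⊓ 𝒩(Y) ≤ X ⊓ 𝒩(Y) ⊔ Y ⊓ 𝒩(X) := le_sup_left
  have hr : Y ⊓ 𝒩(X) ≤ X ⊓ 𝒩(Y) ⊔ Y ⊓ 𝒩(X) := le_sup_right
  generalize X ⊓ 𝒩(Y) ⊔ Y ⊓ 𝒩(X) = A at *
  obtain ⟨v0, hv0, v1⟩ := e'.exI h
  obtain ⟨t0, ht0, t1⟩ := e.exI h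
  let π := A.normalizerMonoidHom
  have pe : ∀ (g : 𝒩(A)) (a : A), ((π g a : A) : G) = g * a * (g : G)⁻¹ := fun _ _ => rfl
  have eqv : ∀ g g' : 𝒩(A), π g = π g' → ∀ a ∈ A, (g : G)⁻¹ * g' * a = a * ((g : G)⁻¹ * g') := by
    intro g g' c a ha
    have := pe g ⟨a, ha⟩
    rw [c, pe] at this
    calc (g : G)⁻¹ * g' * a = (g : G)⁻¹ * (g' * a * (g' : G)⁻¹) * g' := by group
      _ = _ := by rw [this]; group
  have one : ∀ g : 𝒩(A), (g : G) ∈ A → π g = 1 := fun g hg => MulEquiv.ext fun a => Subtype.ext (by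
    rw [pe, comm_of_sq (fun _ => hsq) hg a.2, mul_inv_cancel_right]; rfl)
  set x' : 𝒩(A) := ⟨x, hxA⟩
  set y' : 𝒩(A) := ⟨y, hyA⟩
  have a2 : π x' * π x' = 1 := by rw [← map_mul]; exact one _ (hl ⟨mul_mem hx hx, x2⟩)
  have b2 : π y' * π y' = 1 := by rw [← map_mul]; exact one _ (hr ⟨mul_mem hy hy, y2⟩)
  rcases dih a2 b2 with ⟨j, hj⟩ | ⟨m, j, z1, z2, za, zb, hj⟩
  · simp only [← map_mul, ← map_pow, ← map_inv] at hj
    set k : 𝒩(A) := ((x' * y') ^ j)⁻¹ with hk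
    have hk' : (x' * y') ^ j = k⁻¹ := by rw [hk, inv_inv]
    rw [hk'] at hj
    set s : 𝒩(A) := k * x' * k⁻¹ with hs
    have c := eqv _ _ hj
    have es : (s : G) = k * x * (k : G)⁻¹ := rfl
    have et : ((s * x' * s⁻¹ : 𝒩(A)) : G) = s * x * (s : G)⁻¹ := rfl
    rw [et] at c
    have hW : cj (s : G) X = Y := by
      refine h.ti _ (h.conj _ e.l _) _ e.r t0 (mem_cj.2 (hfX hx xn (nm' s.2 (hr ht0)) ?_).1) ht0.1 t1
      have c1 := c t0 (hr ht0)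
      have c2 := h.comm Y e.r y hy t0 ht0.1
      change _ * y * t0 = t0 * (_ * y) at c1
      rw [mul_assoc, c2, ← mul_assoc, ← mul_assoc, mul_left_inj] at c1
      calc x * ((s : G)⁻¹ * t0 * s) = x * (s : G)⁻¹ * (t0 * (s * x * (s : G)⁻¹)⁻¹) * s * x := by group
        _ = _ := by rw [← c1]; group
    refine ⟨k, ?_, es ▸ hW, ?_, ?_⟩
    · have : x * y ∈ closure ({x, y} : Set G) :=
        mul_mem (subset_closure (by simp)) (subset_closure (by simp))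
      simpa [hk] using pow_mem this j
    · rw [← es, ← hW, cj_cj]
      refine cj_eq_of_mem_norm (hAX ?_)
      rw [es, show k * x * (k : G)⁻¹ * (k * x * (k : G)⁻¹) = k * (x * x) * (k : G)⁻¹ by group]
      exact nm k.2 (hl ⟨mul_mem hx hx, x2⟩)
    · rw [← es]
      have m : (s : G) * x * (s : G)⁻¹ ∈ Y := hW ▸ conj_mem_cj.2 hx
      refine mem_inf.2 ⟨mul_mem m (inv_mem hy), ?_⟩
      rw [← h.comm Y e.r _ (inv_mem hy) _ m]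
      simpa using inv_mem (h.norm_of_cm e.l hv0.1 v1 (c v0 (hl hv0)))
  · exfalso
    simp only [← map_mul, ← map_pow, ← map_inv] at z1 z2 za zb hj
    set z : 𝒩(A) := (x' * y') ^ m
    set k : 𝒩(A) := (x' * y') ^ j
    rw [map_mul] at z2
    rw [map_mul, map_mul] at za zb
    have hA : ∀ a : A, a * a = 1 := fun a => Subtype.ext (hsq a.2)
    have cm : ∀ (g : 𝒩(A)) (f : A), π g f = f → (g : G) * f = f * g := fun g f c => by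
      rw [← mul_inv_eq_iff_eq_mul, ← pe, c]
    obtain ⟨f, f1, f2, f3⟩ := fix2 hA a2 z2 z1 za
    obtain ⟨g, g1, g2, g3⟩ := fix2 hA b2 z2 z1 zb
    have zX : (z : G) ∈ 𝒩(X) := h.norm_of_cm e.l (hfX hx xn f.2 (cm _ _ f2)).1
      (fun c => f1 (Subtype.ext c)) (cm _ _ f3)
    have gY := hfY g.2 (cm _ _ g2)
    have key : ∀ (W : Subgroup G) (w : 𝒩(A)), W ∈ Ω → (w : G) ∈ W → ∀ W0 ≤ W, W0 ≤ A → (w : G) ∉ W0 →
        Nat.card W0 = Nat.card ↥(X ⊓ 𝒩(Y)) → π (x' * z) = π (k⁻¹ * w * k) → False := by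
      intro W w hW hw W0 l1 l2 wn hc c
      have c1 := h.norm_of_cm e.l hv0.1 v1 (eqv _ _ c v0 (hl hv0))
      have c2 : ((k⁻¹ * w * k : 𝒩(A)) : G) ∈ 𝒩(X) := by
        simpa [mul_assoc] using mul_mem (mul_mem (le_normalizer hx) zX : ((x' * z : 𝒩(A)) : G) ∈ 𝒩(X)) c1
      have c3 : ((k⁻¹ * w * k : 𝒩(A)) : G) ∈ cj (k : G)⁻¹ W := mem_cj.2 (by simpa [mul_assoc])
      by_cases c4 : cj (k : G)⁻¹ W = X
      · rw [c4] at c3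
        have c5 : π z = π (x'⁻¹ * (k⁻¹ * w * k)) := by rw [map_mul, ← c, ← map_mul]; simp
        have c6 : ((x'⁻¹ * (k⁻¹ * w * k) : 𝒩(A)) : G) ∈ X := mul_mem (inv_mem hx) c3
        refine z1 (c5.trans (one _ (hl ⟨c6, h.norm_of_cm e.r gY.1 (fun c => g1 (Subtype.ext c))
          (cm _ _ (c5 ▸ g3))⟩)))
      · have := h3 (h.conj _ hW _) c4 (cj_mono _ l1) (cj_le_of_mem_norm l2 (inv_mem k.2))
          (by rw [card_cj, hc]) ⟨c3, c2⟩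
        exact wn (by simpa [mul_assoc] using mem_cj.1 this)
    rcases hj with hj | hj
    · exact key X x' e.l hx _ inf_le_left hl (fun c => xn c.2) rfl hj
    · exact key Y y' e.r hy _ inf_le_left hr (fun c => yn c.2) (h.cardI e.l e.r) hj

theorem NC.mem_norm (h : Cl Ω) (e : NC Ω X Y) {y : G} (hy : y ∈ Y) : y ∈ 𝒩(X) ↔ y ∈ om Y := by
  refine ⟨fun c => mem_om_of hy (e.elem h ⟨hy, c⟩), fun c => by_contra fun yn => ?_⟩
  have y2 := h.om_sq e.r c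
  obtain ⟨t, ht, t1⟩ := e.exI h
  have t2 := e.elem h ht
  obtain ⟨x, hx, x2, xn⟩ : ∃ x ∈ X, x * x ≠ 1 ∧ x * x ∈ 𝒩(Y) := by
    obtain ⟨x, hx, x2, x4⟩ := h.ex4 e.l
    by_cases c : x * x * t = t * (x * x)
    · exact ⟨x, hx, x2, h.norm_of_cm e.r ht.1 t1 c⟩
    have hx' := nm ht.2 hx
    have e1 : x * (t * x * t⁻¹) * (x * (t * x * t⁻¹)) = x * x * (t * (x * x) * t⁻¹) := by
      rw [mul_assoc, ← mul_assoc _ x, ← h.comm X e.l _ hx _ hx']; group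
    refine ⟨x * (t * x * t⁻¹), mul_mem hx hx', fun c' => c ?_, h.norm_of_cm e.r ht.1 t1 ?_⟩
    · rw [e1, ← x4, mul_right_inj, mul_inv_eq_iff_eq_mul] at c'
      exact c'.symm
    · have c2 := h.comm X e.l _ (mul_mem hx hx) _ (nm ht.2 (mul_mem hx hx))
      rw [e1]
      nth_rewrite 2 [c2]
      rw [inv_eq_of_mul_eq_one_right t2]
      simp only [mul_assoc, t2, mul_one]
      simp only [← mul_assoc, t2, one_mul]
  obtain ⟨k, -, c1, -, c2⟩ := e.dihed h hx (fun c => x2 ((e.symm h).elem h ⟨hx, c⟩)) xn hy yn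
    (y2 ▸ one_mem _)
  generalize k * x * k⁻¹ = s at *
  have c3 := e.elem h c2
  have c4 := h.comm Y e.r _ (inv_mem hy) _ (c1 ▸ conj_mem_cj.2 hx : s * x * s⁻¹ ∈ Y)
  rw [mul_assoc, ← mul_assoc y⁻¹, c4, mul_assoc _ y⁻¹, ← mul_inv_rev, y2, inv_one, mul_one] at c3
  exact cne s x2 (by rw [← c3]; group)

theorem NC.e4 (h : Cl Ω) (e : NC Ω X Y) : E4 Ω := by
  have key : ∀ x ∈ X, x * x ∈ om X := by
    intro x hx
    have inv : ∀ t ∈ Y, t * t = 1 → t ≠ 1 → t * (x * x) * t⁻¹ = (x * x)⁻¹ := by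
      intro t ht t2 t1
      have tn := (e.mem_norm h ht).2 (mem_om_of ht t2)
      have hx' := nm tn hx
      have c := h.comm X e.l _ hx _ hx'
      have := (e.symm h).elem h ⟨mul_mem hx hx', h.norm_of_cm e.r ht t1 (by
        nth_rewrite 2 [c]
        rw [inv_eq_of_mul_eq_one_right t2]
        simp only [mul_assoc, t2, mul_one]
        simp only [← mul_assoc, t2, one_mul])⟩
      rw [mul_assoc, ← mul_assoc _ x, ← c] at this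
      rw [eq_inv_iff_mul_eq_one, ← h.comm X e.l _ (mul_mem hx hx) _ (nm tn (mul_mem hx hx)), ← this]
      group
    obtain ⟨a, ha, b, hb, a2, b2, a1, b1, ab⟩ := h.four Y e.r
    refine ((e.symm h).mem_norm h (mul_mem hx hx)).1 (h.norm_of_cm e.r (mul_mem ha hb)
      (fun c => ab (mul_left_cancel (a2.trans c.symm))) ?_)
    rw [eq_comm, ← mul_inv_eq_iff_eq_mul, show a * b * (x * x) * (a * b)⁻¹ =
      a * (b * (x * x) * b⁻¹) * a⁻¹ by group, inv b hb b2 b1, show a * (x * x)⁻¹ * a⁻¹ =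
      (a * (x * x) * a⁻¹)⁻¹ by group, inv a ha a2 a1, inv_inv]
  intro Z hZ z hz
  obtain ⟨g, rfl⟩ := h.tr X e.l Z hZ
  rw [← cj_om, mem_cj]
  convert key _ (mem_cj.1 hz) using 1
  group

theorem NC.memV (h : Cl Ω) (e : NC Ω X Y) {y : G} (hy : y ∈ om Y) : y ∈ Y ⊓ 𝒩(X) :=
  ⟨om_le _ hy, (e.mem_norm h (om_le _ hy)).2 hy⟩

theorem Cl.vc_of_adj (h : Cl Ω) (hX : X ∈ Ω) (hY : Y ∈ Ω) (a : Adj X Y) :
    Com (om X) (om Y) := by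
  rcases Cl.tri hX hY a with rfl | e | e
  · exact (h.comm X hX).toV
  · exact e.com.toV
  · exact fun x hx y hy => h.cmI hX hY e.ne ((e.symm h).memV h hx) (e.memV h hy)

theorem NC.fix (h : Cl Ω) (e : NC Ω X Y) {x w : G} (hx : x ∈ X) (hw : w ∈ om Y) (w1 : w ≠ 1)
    (hc : x * w = w * x) : x ∈ om X :=
  ((e.symm h).mem_norm h hx).1 (h.norm_of_cm e.r (om_le _ hw) w1 hc)

theorem NC.surj (h : Cl Ω) (e : NC Ω X Y) {x v : G} (hx : x ∈ X) (xn : x ∉ om X)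
    (hv : v ∈ om X) : ∃ w ∈ om Y, x * w * x⁻¹ = w * v := by
  have e' := e.symm h
  have m : ∀ w ∈ om Y, x * w * x⁻¹ * w⁻¹ ∈ om X := fun w hw => by
    have := e.comI h hx (e'.memV h (e.e4 h X e.l x hx)).2 (e.memV h hw)
    exact (e'.mem_norm h this.1).1 this.2
  let f : om Y → om X := fun w => ⟨_, m w w.2⟩
  have hf : Function.Injective f := fun w w' c => by
    have c' : x * w * x⁻¹ * (w : G)⁻¹ = x * w' * x⁻¹ * (w' : G)⁻¹ := congrArg Subtype.val c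
    by_contra ne
    refine xn (e.fix h hx (mul_mem (inv_mem w'.2) w.2)
      (fun c => ne (Subtype.ext (inv_mul_eq_one.1 c).symm)) ?_)
    calc x * ((w' : G)⁻¹ * w) = (w' : G)⁻¹ * (x * w' * x⁻¹ * (w' : G)⁻¹)⁻¹ * x * w := by group
      _ = _ := by rw [← c']; group
  obtain ⟨w, hw⟩ := (hf.bijective_of_nat_card_le (h.card_om_eq e.l e.r).le).2 ⟨v, hv⟩
  refine ⟨w, w.2, ?_⟩
  rw [← h.vc_of_adj e.l e.r e.adj v hv w w.2, ← mul_inv_eq_iff_eq_mul]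
  exact congrArg Subtype.val hw

theorem NC.sigma (h : Cl Ω) (e : NC Ω X Y) {x y : G} (hx : x ∈ X) (xn : x ∉ om X) (hy : y ∈ Y)
    (yn : y ∉ om Y) : ∃ k ∈ closure ({x, y} : Set G), cj (k * x * k⁻¹) X = Y ∧
      cj (k * x * k⁻¹) Y = X ∧ k * x * k⁻¹ * x * (k * x * k⁻¹)⁻¹ * y⁻¹ ∈ om Y := by
  have e' := e.symm h
  obtain ⟨k, hk, c1, c2, c3⟩ := e.dihed h hx (mt (e'.mem_norm h hx).1 xn)
    (e'.memV h (e.e4 h X e.l x hx)).2 hy (mt (e.mem_norm h hy).1 yn) (e.memV h (e.e4 h Y e.r y hy)).2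
  exact ⟨k, hk, c1, c2, (e.mem_norm h c3.1).1 c3.2⟩

end Cfsg.Agent.TIA
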