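import Cfsg.Agent.TIA.D

/-! notes/TIA.md, section Exc. -/

set_option autoImplicit false

namespace Cfsg.Agent.TIA

open Subgroup Cfsg.Agent.H49
open Cfsg.Agent.H74.Sq (nm nm' cne cne')

universe u

variable {G : Type u} [Group G] [Finite G] {Ω : Set (Subgroup G)} {B Q P X Y Z : Subgroup G}

theorem x_surj {A C : Subgroup G} (hc : Nat.card A = Nat.card C) (f : A → G) (hf : ∀ a, f a ∈ C)
    (hi : f.Injective) {v : G} (hv : v ∈ C) : ∃ a, f a = v := by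
  obtain ⟨a, ha⟩ := ((Nat.bijective_iff_injective_and_card (fun a => (⟨f a, hf a⟩ : C))).2
    ⟨fun a b e => hi (congrArg Subtype.val e), hc⟩).2 ⟨v, hv⟩
  exact ⟨a, congrArg Subtype.val ha⟩

omit [Finite G] in
theorem x_cm {a b w : G} (h : a * w * a⁻¹ = b * w * b⁻¹) : b⁻¹ * a * w = w * (b⁻¹ * a) := by
  calc _ = b⁻¹ * (a * w * a⁻¹) * a := by group
    _ = _ := by rw [h]; group

theorem Exc.ne_one (h : Cl Ω) (e : Exc Ω P X Y) {a w : G} (ha : a ∈ om X) (hw : w ∈ om Y)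
    (hc : a * w = w * a) : a = 1 ∨ w = 1 :=
  or_iff_not_imp_right.2 fun w1 => h.d_nc e.l.r e.r.r e.nv (om_le X ha) (om_le Y hw) w1 hc.symm

theorem Exc.surj (h : Cl Ω) (e : Exc Ω P X Y) {w v : G} (hw : w ∈ om Y) (w1 : w ≠ 1)
    (hv : v ∈ om P) : ∃ a ∈ om X, a * w * a⁻¹ = w * v := by
  obtain ⟨a, ha⟩ := x_surj (h.card_om_eq e.l.r e.l.l) (fun a => a.1 * w * a.1⁻¹ * w⁻¹) (fun a => e.comm a a.2 w hw)
    (fun a b k => Subtype.ext (inv_mul_eq_one.1 ((e.ne_one h (mul_mem (inv_mem b.2) a.2) hw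
      (x_cm (mul_right_cancel k))).resolve_right w1)).symm) hv
  exact ⟨a, a.2, by rw [← e.r.vc h v hv w hw, ← ha, inv_mul_cancel_right]⟩

theorem Exc.sq (h : Cl Ω) (e : Exc Ω P X Y) : Sq Ω := by
  have key : ∀ w ∈ om Y, ∃ x ∈ Y, x * x = w := fun w hw => by
    by_cases w1 : w = 1
    · exact ⟨1, one_mem _, by rw [w1, mul_one]⟩
    obtain ⟨y, hy, yn⟩ := h.ex_nom e.r.r
    obtain ⟨p, hp, pn⟩ := h.ex_nom e.r.l
    obtain ⟨k, -, s1, s2, -⟩ := e.r.sigma h hp pn hy yn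
    generalize k * p * k⁻¹ = s at s1 s2
    have hu := e.r.e4 h Y e.r.r y hy
    have hv : s⁻¹ * w * s ∈ om P := by rwa [← s1, ← cj_om, mem_cj] at hw
    have hu' : s * (y * y) * s⁻¹ ∈ om P := by rw [← s2, ← cj_om]; exact conj_mem_cj.2 hu
    obtain ⟨a, -, k1⟩ := e.surj h hu (fun c => yn (mem_om_of hy c)) hv
    obtain ⟨a', -, k2⟩ := e.surj h hw w1 hu'
    have k3 : s * a * (y * y) * (s * a)⁻¹ = a' * w * a'⁻¹ := by
      calc _ = s * (a * (y * y) * a⁻¹) * s⁻¹ := by group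
        _ = s * (y * y) * s⁻¹ * w := by rw [k1]; group
        _ = _ := by rw [k2, e.r.vc h _ hu' w hw]
    have k4 : cj (s * a) Y = cj a' Y := h.ti _ (h.conj Y e.r.r _) _ (h.conj Y e.r.r _) _
      (conj_mem_cj.2 (mul_mem hy hy)) (k3 ▸ conj_mem_cj.2 (om_le Y hw)) (k3 ▸ cne a' w1)
    refine ⟨_, mem_cj.1 (k4 ▸ conj_mem_cj.2 hy : s * a * y * (s * a)⁻¹ ∈ cj a' Y), ?_⟩
    calc _ = a'⁻¹ * (s * a * (y * y) * (s * a)⁻¹) * a' := by group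
      _ = _ := by rw [k3]; group
  intro Z hZ v hv
  obtain ⟨g, rfl⟩ := h.tr Y e.r.r Z hZ
  rw [← cj_om, mem_cj] at hv
  obtain ⟨x, hx, k⟩ := key _ hv
  exact ⟨_, conj_mem_cj.2 hx, by rw [conj_mul, k]; group⟩

theorem NC.surj' (h : Cl Ω) (hs : Sq Ω) (e : NC Ω X Y) {w v : G} (hw : w ∈ om Y) (w1 : w ≠ 1)
    (hv : v ∈ om X) : ∃ x ∈ X, x * w * x⁻¹ = w * v := by
  choose r hr hr' using fun u : om X => hs X e.l u u.2
  obtain ⟨a, ha⟩ := x_surj rfl (fun u => w⁻¹ * r u * w⁻¹⁻¹ * (r u)⁻¹)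
    (fun u => h.act (e.e4 h) e.l (inv_mem ((e.vc h).symm.le_cent hw)) (hr u)) (fun a b k => by
      have k1 : r a * w * (r a)⁻¹ = r b * w * (r b)⁻¹ := by simpa [mul_assoc] using k
      have k2 := e.fix h (mul_mem (inv_mem (hr b)) (hr a)) hw w1 (x_cm k1)
      rw [h.comm X e.l _ (inv_mem (hr b)) _ (hr a), ← h.sq_eq e.l (hr a) (hr b), hr', hr'] at k2
      exact Subtype.ext k2) hv
  exact ⟨r a, hr a, by rw [← ha]; group⟩

theorem Cl.x_com (h : Cl Ω) (hZ : Z ∈ Ω) (hY : Y ∈ Ω) {a y : G} (ha : a ∈ om Z) (a1 : a ≠ 1) (hy : y ∈ Y)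
    (yn : y ∉ om Y) (hc : a * y = y * a) : Com Z Y := by
  rcases Cl.tri hY hZ (h.adj_of_cm hY hy (fun c => yn (c ▸ one_mem _)) (om_le Z ha) a1 hc) with k | k | k
  · exact k ▸ h.comm Y hY
  · exact k.com.symm
  · exact absurd (k.eq_one h ha hy yn hc.symm) a1

theorem NC.point (h : Cl Ω) (hs : Sq Ω) (e : NC Ω P X) (hY : Y ∈ Ω) (c1 : Com (om P) (om Y))
    (c2 : Com (om X) (om Y)) : Com P Y ∨ ∃ b ∈ P, Com (cj b X) Y := by
  obtain ⟨y, hy, yn⟩ := h.ex_nom hY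
  refine or_iff_not_imp_left.2 fun n => ?_
  obtain ⟨w, hw, w1⟩ := h.ex_om e.r
  obtain ⟨v, hv⟩ := x_surj (h.card_om_eq e.l hY) (fun v => v.1 * y * v.1⁻¹ * y⁻¹)
    (fun v => h.act (e.e4 h) hY (c1.le_cent v.2) hy) (fun a b k => Subtype.ext (inv_mul_eq_one.1 (by_contra fun c =>
      n (h.x_com e.l hY (mul_mem (inv_mem b.2) a.2) c hy yn (x_cm (mul_right_cancel k))))).symm)
    (h.act (e.e4 h) hY (c2.le_cent hw) hy)
  obtain ⟨b, hb, k⟩ := e.surj' h hs hw w1 v.2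
  refine ⟨b, hb, h.x_com (h.conj X e.r b) hY (a := b * w * b⁻¹) (by rw [← cj_om]; exact conj_mem_cj.2 hw)
    (cne b w1) hy yn ?_⟩
  have := x_cm (mul_right_cancel hv)
  rwa [h.om_inv e.r hw, ← k] at this

theorem Exc.rel_of (h : Cl Ω) (e : Exc Ω P X Y) {a b w v : G} (ha : a ∈ om X) (hb : b ∈ P) (hw : w ∈ om Y)
    (w1 : w ≠ 1) (hv : v ∈ om P) (k1 : a * w * a⁻¹ = w * v) (k2 : b * w * b⁻¹ = w * v) : a * b ∈ 𝒞(om Y) := by
  refine e.r.cent_om h (h.norm_of e.r.r (om_le Y hw) w1 ?_)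
    (mul_mem ((e.l.vc h).symm.le_cent ha) (((h.comm P e.l.l).mono le_rfl (om_le P)).le_cent hb))
  have : a * b * w * (a * b)⁻¹ = w := by
    calc _ = a * (b * w * b⁻¹) * a⁻¹ := by group
      _ = a * w * a⁻¹ * (a * v) * a⁻¹ := by rw [k2]; group
      _ = w * (v * v) := by rw [k1, ← e.l.vc h v hv a ha]; group
      _ = _ := by rw [h.om_sq e.l.l hv, mul_one]
  rw [this]
  exact om_le Y hw

theorem Exc.rel (h : Cl Ω) (e : Exc Ω P X Y) {b : G} (hb : b ∈ P) :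
    ∃ a ∈ om X, a * b ∈ 𝒞(om Y) := by
  obtain ⟨w, hw, w1⟩ := h.ex_om e.r.r
  have hv := h.act (e.r.e4 h) e.l.l (inv_mem ((e.r.vc h).symm.le_cent hw)) hb
  obtain ⟨a, ha, k⟩ := e.surj h hw w1 hv
  exact ⟨a, ha, e.rel_of h ha hb hw w1 hv k (by group)⟩

theorem Exc.rel' (h : Cl Ω) (e : Exc Ω P X Y) {a : G} (ha : a ∈ om X) :
    ∃ b ∈ P, a * b ∈ 𝒞(om Y) := by
  obtain ⟨w, hw, w1⟩ := h.ex_om e.r.r
  have hv := e.comm a ha w hw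
  obtain ⟨b, hb, k⟩ := e.r.surj' h (e.sq h) hw w1 hv
  exact ⟨b, hb, e.rel_of h ha hb hw w1 hv (by rw [← e.r.vc h _ hv w hw, inv_mul_cancel_right]) k⟩

theorem Exc.rel_inv (h : Cl Ω) (e : Exc Ω P X Y) {a b : G} (ha : a ∈ om X) (hb : b ∈ P)
    (hr : a * b ∈ 𝒞(om Y)) : a * b * a⁻¹ = b⁻¹ :=
  (e.r.inv h hb ((e.l.vc h).symm.le_cent ha) (h.om_sq e.l.r ha) (h.cent_om_le e.r.r hr)).2

theorem Exc.rel_mul (h : Cl Ω) (e : Exc Ω P X Y) {a b a' b' : G} (ha : a ∈ om X) (hb : b ∈ P)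
    (ha' : a' ∈ om X) (hb' : b' ∈ P) (hr : a * b ∈ 𝒞(om Y)) (hr' : a' * b' ∈ 𝒞(om Y)) :
    a * a' * (b * b') ∈ 𝒞(om Y) := by
  have k : a * (a' * b') * a⁻¹ ∈ 𝒞(om Y) := fun w hw => by
    have hv := e.comm _ (inv_mem ha) w hw
    have k1 : Commute (a⁻¹ * w * a⁻¹⁻¹ * w⁻¹) (a' * b') :=
      Commute.mul_right (e.l.vc h _ hv _ ha') (h.comm P e.l.l _ (om_le P hv) _ hb')
    have k2 := (k1.mul_left (hr' w hw)).eq
    calc _ = a * (a⁻¹ * w * a⁻¹⁻¹ * w⁻¹ * w * (a' * b')) * a⁻¹ := by group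
      _ = _ := by rw [k2]; group
  have := mul_mem k hr
  rwa [show a * (a' * b') * a⁻¹ * (a * b) = a * a' * (b' * b) by group, h.comm P e.l.l b' hb' b hb] at this

theorem Exc.polar (h : Cl Ω) (e : Exc Ω P X Y) {a b a' b' : G} (ha : a ∈ om X) (hb : b ∈ P)
    (ha' : a' ∈ om X) (hb' : b' ∈ P) (hr : a * b ∈ 𝒞(om Y)) (hr' : a' * b' ∈ 𝒞(om Y)) :
    a * b' * a⁻¹ * b'⁻¹ = a' * b * a'⁻¹ * b⁻¹ := by
  have i1 := e.rel_inv h ha hb hr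
  have i2 := e.rel_inv h ha' hb' hr'
  have i3 := e.rel_inv h (mul_mem ha ha') (mul_mem hb hb') (e.rel_mul h ha hb ha' hb' hr hr')
  have m1 := h.act (e.l.e4 h) e.l.l ((e.l.vc h).symm.le_cent ha) hb'
  have m2 := h.act (e.l.e4 h) e.l.l ((e.l.vc h).symm.le_cent ha') hb
  have c1 := e.l.vc h _ m2 a ha
  have c2 := h.comm P e.l.l _ (om_le P m2) _ (mul_mem hb' hb)
  have c3 := h.comm P e.l.l b hb b' hb'
  have j : a * a' * (b * b') * (a * a')⁻¹ =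
      a * (a' * b * a'⁻¹ * b⁻¹) * a⁻¹ * (a * b * a⁻¹) * (a * (a' * b' * a'⁻¹) * a⁻¹) := by group
  rw [i3, i1, i2, ← c1, c3] at j
  generalize a' * b * a'⁻¹ * b⁻¹ = m at j c2
  calc _ = ((b' * b) * (m * a * a⁻¹ * b⁻¹ * (a * b'⁻¹ * a⁻¹)))⁻¹ * (b' * b * m) * b⁻¹ * b'⁻¹ := by group
    _ = _ := by rw [← j, ← c2]; group

theorem Exc.dec (h : Cl Ω) (e : Exc Ω P X Y) {w : G} (hw : w ∈ om Y) :
    ∃ b ∈ P, ∃ a ∈ om X, a * b ∈ 𝒞(om Y) ∧ w * b ∈ 𝒞(om X) ∧ w * b * a ∈ 𝒞(P ⊔ X) := by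
  obtain ⟨b, hb, r1⟩ := e.symm.rel' h hw
  obtain ⟨a, ha, r2⟩ := e.rel h hb
  have cP : P ≤ 𝒞(P) := (h.comm P e.l.l).le_cent
  have k1 : w⁻¹ * a ∈ 𝒞(P) := fun b' hb' => by
    obtain ⟨w', hw', r3⟩ := e.symm.rel h hb'
    have p := e.symm.polar h hw hb hw' hb' r1 r3
    have m := h.om_inv e.l.l (h.act (e.l.e4 h) e.l.l ((e.r.vc h).symm.le_cent hw') hb)
    have c1 := r3 a ha
    have c2 := r2 w' hw'
    have i1 := h.om_inv e.l.r ha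
    have i2 := h.om_inv e.r.r hw'
    refine (x_cm (mul_right_cancel (b := b'⁻¹) ?_)).symm
    rw [p, ← m]
    calc _ = a * w'⁻¹ * (w' * b' * a)⁻¹⁻¹ * a⁻¹ * a⁻¹ * (w' * b')⁻¹ * w' := by group
      _ = a * w'⁻¹ * (a * (w' * b')) * (a * a)⁻¹ * (w' * b')⁻¹ * w' := by rw [← c1]; group
      _ = a⁻¹ * (w' * (a * b)) * b⁻¹ * w'⁻¹ := by rw [h.om_sq e.l.r ha, i1, i2]; group
      _ = _ := by rw [c2]; group
  have k2 : w * b * a ∈ 𝒞(P) := by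
    have := mul_mem k1 (cP (nm' (h.cent_om_le e.l.l ((e.l.vc h).symm.le_cent ha)) hb))
    rwa [h.om_inv e.r.r hw, show w * a * (a⁻¹ * b * a) = w * b * a by group] at this
  obtain ⟨v, hv, k3⟩ := e.l.adjust h k2 (mul_mem r1 ((h.comm X e.l.r).toV.le_cent ha))
  have k4 : w * (b * v) * a = w * b * a * v := by rw [mul_assoc (w * b), ← e.l.vc h v hv a ha]; group
  refine ⟨b * v, mul_mem hb (om_le P hv), a, ha, ?_, ?_, ?_⟩
  · rw [← mul_assoc]; exact mul_mem r2 ((e.r.vc h).le_cent hv)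
  · rw [← mul_assoc]; exact mul_mem r1 ((e.l.vc h).le_cent hv)
  · rw [k4, cent_sup]; exact ⟨mul_mem k2 (cP (om_le P hv)), k3⟩

theorem Exc.x_nom (h : Cl Ω) (e : Exc Ω P X Y) {w b a : G} (hw : w ∈ om Y) (w1 : w ≠ 1)
    (ha : a ∈ om X) (hz : w * b * a ∈ 𝒞(P ⊔ X)) : b ∉ om P := fun hb => by
  obtain ⟨x, hx, x1⟩ := h.ex_om e.l.r
  have := mul_mem (mul_mem (cent_anti ((om_le X).trans le_sup_right) hz)
    (inv_mem ((h.comm X e.l.r).toV.le_cent ha))) (inv_mem ((e.l.vc h).le_cent hb))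
  rw [mul_inv_cancel_right, mul_inv_cancel_right] at this
  exact (e.ne_one h hx hw (this x hx)).elim x1 w1

theorem Exc.move (h : Cl Ω) (e : Exc Ω P X Y) {w b a w' b' a' : G} (hw : w ∈ om Y) (w1 : w ≠ 1)
    (hb : b ∈ P) (ha : a ∈ om X) (hr : a * b ∈ 𝒞(om Y)) (hz : w * b * a ∈ 𝒞(P ⊔ X))
    (hw' : w' ∈ om Y) (w1' : w' ≠ 1) (hb' : b' ∈ P) (ha' : a' ∈ om X) (hr' : a' * b' ∈ 𝒞(om Y))
    (hz' : w' * b' * a' ∈ 𝒞(P ⊔ X)) : ∃ g ∈ P ⊔ X, g ∈ 𝒩(P) ∧ ∃ v ∈ om P,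
      g * w * g⁻¹ = w * b * a * (w' * b' * a')⁻¹ * w' * v ∧
      g * w * g⁻¹ * w' = w' * (g * w * g⁻¹) := by
  have bn' := e.x_nom h hw' w1' ha' hz'
  obtain ⟨g, hg, gn, m1⟩ := e.l.trans h hb (e.x_nom h hw w1 ha hz) hb' bn'
  obtain ⟨v2, m2, a1, ha1, k1⟩ := (e.l.mem_A h).1 (nm (e.l.normA h hg) (mem_sup_right ha))
  obtain ⟨v1, k0⟩ : ∃ v1, v1 = g * b * g⁻¹ * b'⁻¹ := ⟨_, rfl⟩
  rw [← k0] at m1
  have k2 : g * b * g⁻¹ = v1 * b' := by rw [k0, inv_mul_cancel_right]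
  have cP : ∀ v ∈ om P, ∀ p ∈ P, Commute v p := fun v hv p hp => h.comm P e.l.l v (om_le P hv) p hp
  have cX : ∀ v ∈ om P, ∀ x ∈ om X, Commute v x := e.l.vc h
  have k3 : a1 * b' * a1⁻¹ = a' * b' * a'⁻¹ := by
    have j1 : v2 * a1 * (v1 * b') * (v2 * a1)⁻¹ = (v1 * b')⁻¹ := by
      rw [← k1, ← k2]
      calc _ = g * (a * b * a⁻¹) * g⁻¹ := by group
        _ = _ := by rw [e.rel_inv h ha hb hr]; group
    rw [e.rel_inv h ha' hb' hr']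
    calc _ = v1⁻¹ * (v1 * a1) * b' * a1⁻¹ := by group
      _ = v1⁻¹ * v2⁻¹ * (v2 * a1 * (v1 * b') * (v2 * a1)⁻¹) * v2 := by rw [(cX v1 m1 a1 ha1).eq]; group
      _ = v1⁻¹ * v2⁻¹ * (b'⁻¹ * (v1⁻¹ * v2)) := by rw [j1]; group
      _ = (v1 * v1)⁻¹ * (v1 * v2⁻¹ * v1⁻¹ * v2) * b'⁻¹ := by
        rw [← (cP _ (mul_mem (inv_mem m1) m2) _ (inv_mem hb')).eq]; group
      _ = _ := by rw [h.om_sq e.l.l m1, (cP v1 m1 _ (inv_mem (om_le P m2))).eq]; group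
  obtain rfl : a' = a1 := inv_mul_eq_one.1 (e.l.eq_one h (mul_mem (inv_mem ha') ha1) hb' bn' (x_cm k3).symm)
  have hP : P ≤ P ⊔ X := le_sup_left
  have hX : om X ≤ P ⊔ X := (om_le X).trans le_sup_right
  obtain ⟨z, k4⟩ : ∃ z, z = w * b * a := ⟨_, rfl⟩
  obtain ⟨z', k5⟩ : ∃ z, z = w' * b' * a' := ⟨_, rfl⟩
  rw [← k4] at hz ⊢
  rw [← k5] at hz' ⊢
  have t1 : b * a ∈ P ⊔ X := mul_mem (hP hb) (hX ha)
  have t2 : b' * a' ∈ P ⊔ X := mul_mem (hP hb') (hX ha')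
  have k6 : w = z * (b * a)⁻¹ := by rw [k4]; group
  have k7 : w' = z' * (b' * a')⁻¹ := by rw [k5]; group
  have k8 : Commute z z' := by
    have j1 : (z' * z)⁻¹ * (z * z') = (b' * a')⁻¹ * (b * a)⁻¹ * (b' * a') * (b * a) := by
      have j2 := h.comm Y e.r.r w (om_le Y hw) w' (om_le Y hw')
      rw [k6, k7] at j2
      have j3 : Commute (b * a)⁻¹ z' := hz' _ (inv_mem t1)
      have j4 : Commute (b' * a')⁻¹ z := hz _ (inv_mem t2)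
      generalize b * a = t at j2 j3
      generalize b' * a' = t' at j2 j4
      calc _ = (z' * z)⁻¹ * (z * (z' * t⁻¹) * t'⁻¹) * t' * t := by group
        _ = (z' * z)⁻¹ * (z * t⁻¹ * (z' * t'⁻¹)) * t' * t := by rw [← j3.eq]; group
        _ = (z' * z)⁻¹ * (z' * (t'⁻¹ * z) * t⁻¹) * t' * t := by rw [j2]; group
        _ = _ := by rw [j4.eq]; group
    have j2 : (z' * z)⁻¹ * (z * z') ∈ 𝒞(P ⊔ X) := mul_mem (inv_mem (mul_mem hz' hz)) (mul_mem hz hz')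
    have u1 : b * a ∈ P ⊔ om X := mul_mem (mem_sup_left hb) (mem_sup_right ha)
    have u2 : b' * a' ∈ P ⊔ om X := mul_mem (mem_sup_left hb') (mem_sup_right ha')
    obtain ⟨p, hp, x, hx, j3⟩ := (e.l.mem_S h).1 (j1 ▸ mul_mem (mul_mem (mul_mem (inv_mem u2) (inv_mem u1)) u2) u1 :
      (z' * z)⁻¹ * (z * z') ∈ P ⊔ om X)
    rw [j3, cent_sup] at j2
    obtain rfl := e.l.eq_one' h hx ((mul_mem_cancel_left ((h.comm P e.l.l).le_cent hp)).1 j2.1)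
    rw [mul_one] at j2 j3
    obtain rfl := (e.l.symm h).eq_one' h (((e.l.symm h).mem_norm h hp).1 (cent_le_norm X j2.2)) j2.2
    exact (inv_mul_eq_one.1 j3).symm
  have hv := inv_mem (mul_mem m1 m2)
  have k9 : g * w * g⁻¹ = z * z'⁻¹ * w' * (v1 * v2)⁻¹ := by
    calc _ = g * z * g⁻¹ * (g * b * g⁻¹ * (g * a * g⁻¹))⁻¹ := by rw [k6]; group
      _ = z * (v1 * (b' * v2) * a')⁻¹ := by rw [hz g hg, k1, k2]; group
      _ = z * (b' * a' * (v1 * v2))⁻¹ := by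
        rw [← (cP v2 m2 b' hb').eq, ← ((cP _ (mul_mem m1 m2) b' hb').mul_right (cX _ (mul_mem m1 m2) a' ha')).eq]; group
      _ = z * ((v1 * v2) * (b' * a'))⁻¹ := by
        rw [((cP _ (mul_mem m1 m2) b' hb').mul_right (cX _ (mul_mem m1 m2) a' ha')).eq]
      _ = _ := by rw [k7]; group
  refine ⟨g, hg, gn, _, hv, k9, ?_⟩
  have c1 : Commute z w' := k7 ▸ k8.mul_right (Commute.symm (hz _ (inv_mem t2)))
  have c2 : Commute z' w' := k7 ▸ (Commute.refl z').mul_right (Commute.symm (hz' _ (inv_mem t2)))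
  rw [k9]
  exact (((c1.mul_left c2.inv_left).mul_left (Commute.refl w')).mul_left (e.r.vc h _ hv w' hw')).eq

end Cfsg.Agent.TIA
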