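import Cfsg.Agent.TIA.Exc
import Cfsg.Agent.H18.Four

/-! notes/TIA.md, section Four. -/

set_option autoImplicit false

namespace Cfsg.Agent.TIA

open Subgroup Cfsg.Agent.H49
open Cfsg.Agent.H74.Sq (nm nm' cne cne')

universe u

variable {G : Type u} [Group G] [Finite G] {Ω : Set (Subgroup G)} {B Q P X Y Z : Subgroup G}

namespace Four

/-- the commutator -/
def cm (a b : G) : G := a * b * a⁻¹ * b⁻¹

theorem cm_mem (h : Cl Ω) (e : NC Ω P X) {a b : G} (ha : a ∈ om X) (hb : b ∈ P) : cm a b ∈ om P :=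
  h.act (e.e4 h) e.l ((e.vc h).symm.le_cent ha) hb

theorem cm_left (h : Cl Ω) (e : NC Ω P X) {a a' b : G} (ha : a ∈ om X) (ha' : a' ∈ om X) (hb : b ∈ P) :
    cm (a * a') b = cm a' b * cm a b := by
  rw [show cm (a * a') b = a * cm a' b * a⁻¹ * cm a b by simp only [cm]; group,
    ← e.vc h _ (cm_mem h e ha' hb) a ha, mul_inv_cancel_right]

theorem cm_right (h : Cl Ω) (e : NC Ω P X) {a b b' : G} (ha : a ∈ om X) (hb : b ∈ P) (hb' : b' ∈ P) :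
    cm a (b * b') = cm a b * cm a b' := by
  rw [show cm a (b * b') = cm a b * (b * cm a b' * b⁻¹) by simp only [cm]; group,
    h.comm P e.l b hb _ (om_le P (cm_mem h e ha hb')), mul_inv_cancel_right]

theorem conj_eq (h : Cl Ω) (e : NC Ω P X) {a : G} (ha : a ∈ om X) (b : G) :
    b * a * b⁻¹ = a * cm a b := by
  rw [cm, h.om_inv e.r ha, ← mul_assoc, ← mul_assoc, ← mul_assoc, h.om_sq e.r ha, one_mul]

omit [Finite G] in
theorem cm_eq_one {a b : G} : cm a b = 1 ↔ a * b = b * a := by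
  rw [cm, mul_inv_eq_one, mul_inv_eq_iff_eq_mul]

theorem lemL (h : Cl Ω) (hs : Sq Ω) (e : NC Ω P X) {b : G} (hb : b ∈ P) (bn : b ∉ om P) :
    ∃ y ∈ X, y ∉ om X ∧ cj y P = cj b X ∧ ∀ a ∈ om X, cm (cm a b) y = a := by
  have e' := e.symm h
  obtain ⟨a0, ha0, a1⟩ := h.ex_om e.r
  have hv := cm_mem h e ha0 hb
  obtain ⟨y, hy, e1⟩ := e'.surj' h hs hv
    (fun c => a1 (e.eq_one h ha0 hb bn (cm_eq_one.1 c).symm)) ha0
  have e2 : cj y P = cj b X := h.ti _ (h.conj _ e.l y) _ (h.conj _ e.r b) (b * a0 * b⁻¹) (by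
    rw [conj_eq h e ha0, ← e.vc h _ hv _ ha0, ← e1]
    exact conj_mem_cj.2 (om_le P hv)) (conj_mem_cj.2 (om_le X ha0)) (cne b a1)
  have key : ∀ a ∈ om X, cm (cm a b) y = a := fun a ha => by
    have h1 : b * a * b⁻¹ ∈ cj y (om P) := by
      rw [cj_om, e2, ← cj_om]; exact conj_mem_cj.2 ha
    obtain ⟨v, hv, e3⟩ := mem_cj'.1 h1
    rw [conj_eq h e ha, conj_eq h e' hv] at e3
    have h2 := cm_mem h e ha hb
    have h3 := cm_mem h e' hv hy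
    have h4 : v⁻¹ * cm a b = cm v y * a⁻¹ := by
      rw [inv_mul_eq_iff_eq_mul, ← mul_assoc, ← e3, ← e.vc h _ h2 a ha, mul_inv_cancel_right]
    have h5 := h.eq_one e.l e.r e.ne (om_le P (mul_mem (inv_mem hv) h2))
      (h4 ▸ om_le X (mul_mem h3 (inv_mem ha)))
    rw [← inv_mul_eq_one.1 h5, ← mul_inv_eq_one, ← h4, h5]
  exact ⟨y, hy, fun c => a1 ((key a0 ha0).symm.trans (cm_eq_one.2 (e.vc h _ hv y c))), e2, key⟩

theorem cm_rel (h : Cl Ω) (e : Exc Ω P X Y) {a b : G} (ha : a ∈ om X) (hb : b ∈ P)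
    (hr : a * b ∈ 𝒞(om Y)) : cm a b = b * b := by
  rw [cm, e.rel_inv h ha hb hr, ← mul_inv_rev, h.om_inv e.l.l (e.l.e4 h P e.l.l b hb)]

theorem sq_eq (h : Cl Ω) (e : Exc Ω P X Y) {a b y : G} (ha : a ∈ om X) (hb : b ∈ P)
    (hr : a * b ∈ 𝒞(om Y)) (hy : y ∈ X) (e1 : cj y P = cj b X) (e2 : cm (cm a b) y = a) :
    y * y = a := by
  have e' := e.l.symm h
  have hc := e.l.e4 h P e.l.l b hb
  have hd := e.l.e4 h X e.l.r y hy
  have n1 : cj b (cj b X) = X := by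
    rw [cj_cj, cj_eq_of_mem_norm ((e'.mem_norm h (om_le P hc)).2 hc)]
  have n2 : cj y (cj y P) = P := by
    rw [cj_cj, cj_eq_of_mem_norm ((e.l.mem_norm h (om_le X hd)).2 hd)]
  have s1 : cj (b * y * b⁻¹) P = X := by
    rw [cj_mul, cj_mul, cj_eq_of_mem (inv_mem hb), e1, n1]
  have s2 : cj (b * y * b⁻¹)⁻¹ P = X := by
    rw [cj_eq_iff, inv_inv, cj_mul, cj_mul, show cj b⁻¹ X = cj b X from cj_eq_iff.2 (by
      rw [inv_inv, n1]), ← e1, n2, cj_eq_of_mem hb]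
  have s3 : cj (b * y * b⁻¹) (cj b X) = cj b X := cj_eq_of_mem (conj_mem_cj.2 hy)
  have s4 : b * y * b⁻¹ * b * (b * y * b⁻¹)⁻¹ * (b * y * b⁻¹ * b * (b * y * b⁻¹)⁻¹) = a := by
    rw [cm_rel h e ha hb hr] at e2
    calc _ = b * (y * (b * b) * y⁻¹) * b⁻¹ := by group
      _ = b * b * (b * a * b⁻¹) := by rw [conj_eq h e' hc, e2]; group
      _ = a := by
        rw [conj_eq h e.l ha, cm_rel h e ha hb hr, ← e.l.vc h _ hc a ha, ← mul_assoc,
          h.om_sq e.l.l hc, one_mul]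
  generalize b * y * b⁻¹ = s at *
  have h1 : s * b * s⁻¹ ∈ X := s1 ▸ conj_mem_cj.2 hb
  have h2 : y⁻¹ * (s * b * s⁻¹) ∈ om X := (e.l.mem_norm h (mul_mem (inv_mem hy) h1)).1 (by
    rw [mem_norm_iff_cj, cj_mul, cj_mul, cj_mul, s2, s3, ← e1, cj_inv_cj])
  rw [← s4, eq_comm, h.sq_eq e.l.r h1 hy, h.comm X e.l.r _ h1 _ (inv_mem hy)]
  exact h2

theorem lemK (h : Cl Ω) (e : Exc Ω P X Y) {a b b' : G} (ha : a ∈ om X) (hb : b ∈ P) (hb' : b' ∈ P)
    (hr : a * b ∈ 𝒞(om Y)) (n1 : b ∉ om P) (n2 : b' ∉ om P) (n3 : b * b' ∉ om P) :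
    cm a b' = b * b' * (b * b') := by
  have e' := e.l.symm h
  obtain ⟨a', ha', hr'⟩ := e.rel h hb'
  have hr3 := e.rel_mul h ha hb ha' hb' hr hr'
  obtain ⟨y1, hy1, -, c1, k1⟩ := lemL h (e.sq h) e.l hb n1
  obtain ⟨y2, hy2, -, c2, k2⟩ := lemL h (e.sq h) e.l hb' n2
  obtain ⟨y3, hy3, yn, c3, k3⟩ := lemL h (e.sq h) e.l (mul_mem hb hb') n3
  have q1 := sq_eq h e ha hb hr hy1 c1 (k1 a ha)
  have q2 := sq_eq h e ha' hb' hr' hy2 c2 (k2 a' ha')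
  have q3 := sq_eq h e (mul_mem ha ha') (mul_mem hb hb') hr3 hy3 c3 (k3 _ (mul_mem ha ha'))
  have h1 : y3 * (y1 * y2)⁻¹ ∈ om X := (h.sq_eq e.l.r hy3 (mul_mem hy1 hy2)).1 (by
    rw [q3, ← q1, ← q2, mul_assoc y1 y2, ← mul_assoc y2, ← h.comm X e.l.r y1 hy1 y2 hy2]
    simp only [mul_assoc])
  have hm := cm_mem h e.l ha hb'
  have h2 : cm (cm a b') y3 = a' * a := by
    rw [← inv_mul_cancel_right y3 (y1 * y2), cm_right h e' hm (om_le X h1) (mul_mem hy1 hy2),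
      cm_eq_one.2 (e.l.vc h _ hm _ h1), one_mul, cm_right h e' hm hy1 hy2, k2 a ha,
      show cm a b' = cm a' b from e.polar h ha hb ha' hb' hr hr', k1 a' ha']
  have hc := e.l.e4 h P e.l.l _ (mul_mem hb hb')
  have h3 := k3 _ (mul_mem ha ha')
  rw [cm_rel h e (mul_mem ha ha') (mul_mem hb hb') hr3] at h3
  have h4 := e'.eq_one h (mul_mem hm hc) hy3 yn (cm_eq_one.1 (by
    rw [cm_left h e' hm hc hy3, h2, h3, mul_assoc, ← mul_assoc a', h.om_sq e.l.r ha', one_mul,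
      h.om_sq e.l.r ha])).symm
  rw [eq_inv_of_mul_eq_one_left h4, h.om_inv e.l.l hc]

end Four

open Four in
theorem Exc.card (h : Cl Ω) (e : Exc Ω P X Y) : Nat.card (om P) = 4 := by
  obtain ⟨c, hc, d, hd, c2, d2, c1, d1, cd⟩ := h.four P e.l.l
  have cm' := h.comm P e.l.l
  rw [← H18.card_four c2 d2 (cm' c hc d hd) c1 d1 cd]
  congr 2
  refine le_antisymm (fun v hv => by_contra fun vn => ?_)
    (H18.four_le (mem_om_of hc c2) (mem_om_of hd d2))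
  simp only [H18.mem_four, not_or] at vn
  have v2 := h.om_sq e.l.l hv
  obtain ⟨b, hb, rfl⟩ := e.sq h P e.l.l c (mem_om_of hc c2)
  obtain ⟨b', hb', rfl⟩ := e.sq h P e.l.l d (mem_om_of hd d2)
  obtain ⟨k, hk, rfl⟩ := e.sq h P e.l.l v hv
  have sq : ∀ x ∈ P, ∀ y ∈ P, x * y * (x * y) = x * x * (y * y) := fun x hx y hy => by
    rw [mul_assoc x y, ← mul_assoc y, ← cm' x hx y hy]
    simp only [mul_assoc]
  have nom : ∀ x ∈ P, ∀ y ∈ P, y * y ≠ x * x → x * y ∉ om P := fun x hx y hy ne c => by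
    have h1 := h.om_sq e.l.l c
    rw [sq x hx y hy] at h1
    exact ne (by rw [eq_inv_of_mul_eq_one_right h1, h.om_inv e.l.l (e.l.e4 h P e.l.l x hx)])
  have n1 : b ∉ om P := fun c => c1 (h.om_sq e.l.l c)
  have n2 : b' ∉ om P := fun c => d1 (h.om_sq e.l.l c)
  have n3 : k ∉ om P := fun c => vn.1 (h.om_sq e.l.l c)
  obtain ⟨a, ha, hr⟩ := e.rel h hb
  obtain ⟨a', ha', hr'⟩ := e.rel h hb'
  have h1 := lemK h e ha hb hk hr n1 n3 (nom b hb k hk vn.2.1)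
  have h2 := lemK h e ha' hb' hk hr' n2 n3 (nom b' hb' k hk vn.2.2.1)
  have h3 := lemK h e (mul_mem ha ha') (mul_mem hb hb') hk (e.rel_mul h ha hb ha' hb' hr hr')
    (nom b hb b' hb' cd.symm) n3 (nom _ (mul_mem hb hb') k hk (by rw [sq b hb b' hb']; exact vn.2.2.2))
  rw [cm_left h e.l ha ha' hk, h1, h2, sq b hb k hk, sq b' hb' k hk, sq _ (mul_mem hb hb') k hk,
    sq b hb b' hb', cm' _ hc _ hd, mul_assoc (b' * b'), mul_assoc (b' * b'), mul_right_inj,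
    cm' _ hc _ (om_le P hv), ← mul_assoc, mul_left_inj, v2] at h3
  exact vn.1 h3.symm

end Cfsg.Agent.TIA
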